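import Cfsg.Agent.H99.TensorU.Basic
import Mathlib.FieldTheory.ChevalleyWarning

/-!
A common zero of the norm condition and a determinant of a matrix depending linearly on parameters from the fixed
field, after Chevalley and Warning.
-/

set_option autoImplicit false
set_option linter.unusedSectionVars false

namespace Cfsg.Agent.H99.TensorU

open Matrix MvPolynomial

variable {F : Type*} [Field F] [StarRing F]

/-- The fixed field. -/
def fixF (F : Type*) [Field F] [StarRing F] : Subfield F where
  carrier := {x | star x = x}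
  mul_mem' {x y} hx hy := by
    change star (x * y) = x * y
    rw [star_mul', hx, hy]
  one_mem' := star_one F
  add_mem' {x y} hx hy := by
    change star (x + y) = x + y
    rw [star_add, hx, hy]
  zero_mem' := star_zero F
  neg_mem' {x} hx := by
    change star (-x) = -x
    rw [star_neg, hx]
  inv_mem' x hx := by
    change star x⁻¹ = x⁻¹
    rw [star_inv₀, hx]

theorem fix_star (x : fixF F) : star (x : F) = x := x.2

/-- A polynomial with fixed values is given by one with fixed coefficients. -/
theorem exists_fixed_poly {κ : Type} [Fintype κ] (hns : ∃ x : F, star x ≠ x) (p : MvPolynomial κ F) :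
    ∃ g : MvPolynomial κ (fixF F), g.totalDegree ≤ p.totalDegree ∧ ∀ x : κ → fixF F,
      star (eval (fun i => (x i : F)) p) = eval (fun i => (x i : F)) p →
        ((eval x g : fixF F) : F) = eval (fun i => (x i : F)) p := by
  classical
  obtain ⟨θ, hθ⟩ := exists_trace hns (a := (1 : F)) (star_one F)
  let τ : F → fixF F := fun z => ⟨θ * z + star (θ * z), by
    change star (θ * z + star (θ * z)) = _
    rw [star_add, star_star, add_comm]⟩
  refine ⟨p.support.sum fun m => monomial m (τ (coeff m p)), ?_, fun x hx => ?_⟩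
  · refine le_trans (totalDegree_finsetSum_le fun m hm => ?_) le_rfl
    exact le_trans (totalDegree_monomial_le _ _) (le_totalDegree hm)
  · have h2 : ((eval x (p.support.sum fun m => monomial m (τ (coeff m p))) : fixF F) : F) =
        θ * eval (fun i => (x i : F)) p + star (θ * eval (fun i => (x i : F)) p) := by
      have hev : eval (fun i => (x i : F)) p =
          p.support.sum fun m => coeff m p * (((m.prod fun i k => x i ^ k) : fixF F) : F) := by
        rw [eval_eq]
        refine Finset.sum_congr rfl fun m _ => ?_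
        congr 1
        rw [Finsupp.prod, ← Subfield.coe_subtype, map_prod]
        simp
      rw [hev, map_sum, Finset.mul_sum, star_sum, ← Finset.sum_add_distrib, AddSubmonoidClass.coe_finsetSum]
      refine Finset.sum_congr rfl fun m _ => ?_
      have e : star (θ * (coeff m p * (((m.prod fun i k => x i ^ k) : fixF F) : F))) =
          star (θ * coeff m p) * (((m.prod fun i k => x i ^ k) : fixF F) : F) := by
        rw [← mul_assoc, star_mul', fix_star]
      rw [eval_monomial, e]
      simp only [τ, MulMemClass.coe_mul]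
      ring
    rw [h2]
    set a := eval (fun i => (x i : F)) p
    rw [star_mul', hx]
    linear_combination a * hθ

theorem totalDegree_det_le {κ : Type} {ρ : ℕ} (P : Matrix (Fin ρ) (Fin ρ) (MvPolynomial κ F))
    (h : ∀ i j, (P i j).totalDegree ≤ 1) : P.det.totalDegree ≤ ρ := by
  rw [Matrix.det_apply']
  refine totalDegree_finsetSum_le fun σ _ => ?_
  refine le_trans (totalDegree_mul _ _) ?_
  rw [show ((Equiv.Perm.sign σ : ℤ) : MvPolynomial κ F) = MvPolynomial.C ((Equiv.Perm.sign σ : ℤ) : F) from
    (map_intCast _ _).symm, totalDegree_C, zero_add]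
  refine le_trans (totalDegree_finset_prod _ _) ?_
  exact le_trans (Finset.sum_le_sum fun i _ => h _ _) (by simp)

/-- A common zero. -/
theorem exists_zero [Finite F] {κ : Type} [Fintype κ] [DecidableEq κ] {m : Type} [Fintype m]
    (hns : ∃ x : F, star x ≠ x) {ρ : ℕ} (hρ : 0 < ρ) (hκ : ρ + 2 < Fintype.card κ) (v : κ → m → F) (γ : κ → F)
    (Mt : κ → Matrix (Fin ρ) (Fin ρ) F)
    {s : F} (hs0 : s ≠ 0)
    (hs : ∀ y : κ → fixF F, star (s * (∑ i, (y i : F) • Mt i).det) = s * (∑ i, (y i : F) • Mt i).det) :
    ∃ x : κ → fixF F, x ≠ 0 ∧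
      (∑ i, (x i : F) * γ i) + star (∑ i, (x i : F) * γ i) + sp (∑ i, (x i : F) • v i) (∑ i, (x i : F) • v i) = 0 ∧
      (∑ i, (x i : F) • Mt i).det = 0 := by
  classical
  have : Fintype (fixF F) := Fintype.ofFinite _
  obtain ⟨p, hp⟩ := CharP.exists (fixF F)
  -- the norm condition
  let q₁ : MvPolynomial κ F :=
    ∑ i, MvPolynomial.C (γ i + star (γ i)) * MvPolynomial.X i +
      ∑ i, ∑ j, MvPolynomial.C (sp (v i) (v j)) * (MvPolynomial.X i * MvPolynomial.X j)
  let P : Matrix (Fin ρ) (Fin ρ) (MvPolynomial κ F) :=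
    ∑ i, (MvPolynomial.X i : MvPolynomial κ F) • (Mt i).map MvPolynomial.C
  let q₂ : MvPolynomial κ F := MvPolynomial.C s * P.det
  have e1 : ∀ x : κ → fixF F, eval (fun i => (x i : F)) q₁ =
      (∑ i, (x i : F) * γ i) + star (∑ i, (x i : F) * γ i) + sp (∑ i, (x i : F) • v i) (∑ i, (x i : F) • v i) := by
    intro x
    simp only [q₁, map_add, map_sum, map_mul, eval_C, eval_X]
    congr 1
    · rw [star_sum, ← Finset.sum_add_distrib]
      refine Finset.sum_congr rfl fun i _ => ?_
      rw [star_mul', fix_star]; ring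
    · rw [sp, star_sum, sum_dotProduct]
      refine Finset.sum_congr rfl fun i _ => ?_
      rw [dotProduct_sum]
      refine Finset.sum_congr rfl fun j _ => ?_
      change _ = sp ((x i : F) • v i) ((x j : F) • v j)
      rw [sp_smul_left, sp_smul_right, fix_star]; ring
  have e2 : ∀ x : κ → fixF F, eval (fun i => (x i : F)) q₂ = s * (∑ i, (x i : F) • Mt i).det := by
    intro x
    simp only [q₂, map_mul, eval_C, RingHom.map_det]
    congr 2
    ext a c
    simp [P, Matrix.sum_apply]
  obtain ⟨g₁, d₁, hg₁⟩ := exists_fixed_poly hns q₁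
  obtain ⟨g₂, d₂, hg₂⟩ := exists_fixed_poly hns q₂
  have v1 : ∀ x, ((eval x g₁ : fixF F) : F) = eval (fun i => (x i : F)) q₁ := fun x => hg₁ x (by
    rw [e1, star_add, star_add, star_star, sp_star]; ring)
  have v2 : ∀ x, ((eval x g₂ : fixF F) : F) = eval (fun i => (x i : F)) q₂ := fun x => hg₂ x (by rw [e2]; exact hs x)
  have hd1 : q₁.totalDegree ≤ 2 := by
    refine le_trans (totalDegree_add _ _) (max_le (totalDegree_finsetSum_le fun i _ => ?_)
      (totalDegree_finsetSum_le fun i _ => totalDegree_finsetSum_le fun j _ => ?_))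
    · refine le_trans (totalDegree_mul _ _) ?_
      rw [totalDegree_C, totalDegree_X]; omega
    · refine le_trans (totalDegree_mul _ _) ?_
      rw [totalDegree_C]
      have := totalDegree_mul (MvPolynomial.X i : MvPolynomial κ F) (MvPolynomial.X j)
      rw [totalDegree_X, totalDegree_X] at this
      omega
  have hd2 : q₂.totalDegree ≤ ρ := by
    refine le_trans (totalDegree_mul _ _) ?_
    rw [totalDegree_C, zero_add]
    refine totalDegree_det_le P fun a c => ?_
    simp only [P, Matrix.sum_apply]
    refine totalDegree_finsetSum_le fun i _ => ?_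
    rw [Matrix.smul_apply, smul_eq_mul, Matrix.map_apply]
    refine le_trans (totalDegree_mul _ _) ?_
    rw [totalDegree_C, totalDegree_X]
  have hdiv := char_dvd_card_solutions_of_add_lt p (f₁ := g₁) (f₂ := g₂) (by omega)
  have h01 : eval (0 : κ → fixF F) g₁ = 0 := Subtype.ext (by rw [v1, e1]; simp [sp_zero_left])
  have h02 : eval (0 : κ → fixF F) g₂ = 0 := Subtype.ext (by
    rw [v2, e2]
    have : Nonempty (Fin ρ) := ⟨⟨0, hρ⟩⟩
    simp)
  have hp2 : 2 ≤ p := ((CharP.char_is_prime_or_zero (fixF F) p).resolve_right (fun h => by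
    subst h; exact CharP.char_ne_zero_of_finite (fixF F) 0 rfl)).two_le
  have hcard : 1 < Fintype.card { x : κ → fixF F // eval x g₁ = 0 ∧ eval x g₂ = 0 } := by
    have : 0 < Fintype.card { x : κ → fixF F // eval x g₁ = 0 ∧ eval x g₂ = 0 } :=
      Fintype.card_pos_iff.2 ⟨⟨0, h01, h02⟩⟩
    exact lt_of_lt_of_le hp2 (Nat.le_of_dvd this hdiv)
  obtain ⟨⟨x, hx1, hx2⟩, hne⟩ := Fintype.exists_ne_of_one_lt_card hcard ⟨0, h01, h02⟩
  refine ⟨x, fun h => hne (Subtype.ext h), ?_, ?_⟩
  · rw [← e1, ← v1, hx1]; rfl
  · have : s * (∑ i, (x i : F) • Mt i).det = 0 := by rw [← e2, ← v2, hx2]; rfl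
    exact (mul_eq_zero.1 this).resolve_left hs0

end Cfsg.Agent.H99.TensorU
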