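import Cfsg.Agent.H99.TensorU.Plane
import Cfsg.Agent.H99.TensorU.Zero

/-!
Rank descent: when the layers are scalar every element is a pure tensor.
-/

set_option autoImplicit false
set_option linter.unusedSectionVars false

namespace Cfsg.Agent.H99.TensorU

open Matrix Tensor
open scoped Kronecker

variable {F : Type*} [Field F] [StarRing F] [Finite F] {α : Type} [Fintype α] [DecidableEq α] {b : ℕ}

local notation "Ix" => α × Fin b

/-- A factorisation through the rank. -/
theorem exists_factor (A : Matrix α α F) :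
    ∃ (B : Matrix α (Fin A.rank) F) (C : Matrix (Fin A.rank) α F), A = B * C := by
  let bs : Module.Basis (Fin A.rank) F (LinearMap.range A.mulVecLin) := Module.finBasisOfFinrankEq F _ rfl
  refine ⟨Matrix.of fun i k => (bs k : α → F) i,
    Matrix.of fun k j => bs.repr ⟨A *ᵥ Pi.single j 1, ⟨_, rfl⟩⟩ k, ?_⟩
  ext i j
  have e := congrArg (fun v : LinearMap.range A.mulVecLin => (v : α → F) i)
    (bs.sum_repr ⟨A *ᵥ Pi.single j 1, ⟨_, rfl⟩⟩)
  simp only [Submodule.coe_sum, Submodule.coe_smul, Finset.sum_apply, Pi.smul_apply, smul_eq_mul] at e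
  have e' : (A *ᵥ Pi.single j 1) i = A i j := by rw [Matrix.mulVec_single_one, Matrix.col_apply]
  rw [← e', ← e, Matrix.mul_apply]
  exact Finset.sum_congr rfl fun k _ => mul_comm _ _

theorem rank_conj_le (A : Matrix α α F) : Aᴴ.rank ≤ A.rank := by
  obtain ⟨B, C, h⟩ := exists_factor A
  calc Aᴴ.rank = (Cᴴ * Bᴴ).rank := by rw [← conjTranspose_mul, ← h]
    _ ≤ Cᴴ.rank := Matrix.rank_mul_le_left _ _
    _ ≤ A.rank := le_of_le_of_eq (Matrix.rank_le_card_width _) (Fintype.card_fin _)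

theorem rank_conj (A : Matrix α α F) : Aᴴ.rank = A.rank :=
  le_antisymm (rank_conj_le A) (by
    have := rank_conj_le Aᴴ
    rwa [conjTranspose_conjTranspose] at this)

theorem rank_smul_ne (A : Matrix α α F) {c : F} (hc : c ≠ 0) : (c • A).rank = A.rank := by
  refine le_antisymm ?_ ?_
  · calc (c • A).rank = ((c • (1 : Matrix α α F)) * A).rank := by rw [Matrix.smul_mul, Matrix.one_mul]
      _ ≤ A.rank := Matrix.rank_mul_le_right _ _
  · calc A.rank = ((c⁻¹ • (1 : Matrix α α F)) * (c • A)).rank := by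
          rw [Matrix.smul_mul, Matrix.one_mul, smul_smul, inv_mul_cancel₀ hc, one_smul]
      _ ≤ (c • A).rank := Matrix.rank_mul_le_right _ _

theorem rank_lt_of_det {n : Type} [Fintype n] [DecidableEq n] (A : Matrix n n F) (h : A.det = 0) :
    A.rank < Fintype.card n := by
  obtain ⟨v, hv0, hv⟩ := (Matrix.exists_mulVec_eq_zero_iff (M := A)).2 h
  have h1 := LinearMap.finrank_range_add_finrank_ker A.mulVecLin
  have h2 : 0 < Module.finrank F (LinearMap.ker A.mulVecLin) :=
    Submodule.one_le_finrank_iff.2 ((Submodule.ne_bot_iff _).2 ⟨v, hv, hv0⟩)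
  rw [Module.finrank_fintype_fun_eq_card] at h1
  rw [Matrix.rank]
  omega

variable {M : Subgroup (GL (α × Fin b) F)} (H : Over M)
include H

theorem Over.ct_conj {d : F} (X : Matrix Ix Ix F) (z x x' : Fin b → F) :
    ct α (1 + X * (d • (lft α z * rgt α (star z))) * Xᴴ) x x' =
      sp x x' • (1 : Matrix α α F) + d • (ct α X x z * (ct α X x' z)ᴴ) := by
  rw [ct_add, ct_one]
  congr 1
  rw [ct_conjTranspose, ct, ct, ct, Matrix.mul_smul, Matrix.smul_mul, Matrix.mul_smul, Matrix.smul_mul]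
  simp only [Matrix.mul_assoc]

/-- All elements are pure tensors when the layers are scalar. -/
theorem Over.all_pure [Nonempty α] (hgood : Good M) (hab : Fintype.card α < b) (y : GL Ix F) (hy : y ∈ M) :
    IsPure (y : Matrix Ix Ix F) := by
  classical
  by_contra hnp0
  let P : ℕ → Prop := fun r => ∃ (X : Matrix Ix Ix F) (u v : Fin b → F), InM M X ∧ ¬ IsPure X ∧
    u ≠ 0 ∧ sp u u = 0 ∧ v ≠ 0 ∧ sp v v = 0 ∧ (ct α X u v).rank = r
  obtain ⟨w₁, hw₁0, hw₁⟩ := H.exists_iso
  have hex : ∃ r, P r := ⟨_, _, w₁, w₁, ⟨y, hy, rfl⟩, hnp0, hw₁0, hw₁, hw₁0, hw₁, rfl⟩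
  obtain ⟨X, w, z, hX, hnp, hw0, hw, hz0, hz, hrk⟩ := Nat.find_spec hex
  set ρ := Nat.find hex with hρdef
  have hmin : ∀ (Y : Matrix Ix Ix F) (u v : Fin b → F), InM M Y → ¬ IsPure Y → u ≠ 0 → sp u u = 0 → v ≠ 0 →
      sp v v = 0 → ρ ≤ (ct α Y u v).rank := fun Y u v h1 h2 h3 h4 h5 h6 =>
    Nat.find_min' hex ⟨Y, u, v, h1, h2, h3, h4, h5, h6, rfl⟩
  set A := ct α X w z with hA
  have hA0 : A ≠ 0 := H.ct_ne hgood hX hnp hw0 hw hz0 hz
  have hρ0 : 0 < ρ := by
    rcases Nat.eq_zero_or_pos ρ with h0 | h0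
    · exfalso
      refine hA0 (Matrix.ext_of_mulVec_single fun j => ?_)
      have hb : LinearMap.range A.mulVecLin = ⊥ := Submodule.finrank_eq_zero.1 (hrk.trans h0)
      rw [Matrix.zero_mulVec]
      exact (Submodule.mem_bot F).1 (hb ▸ ⟨Pi.single j 1, rfl⟩)
    · exact h0
  have hρa : ρ ≤ Fintype.card α := hrk ▸ Matrix.rank_le_card_width _
  obtain ⟨d, hd0, hd⟩ := exists_skew H.ns
  -- the first conjugates
  set U := 1 + X * (d • (lft α z * rgt α (star z))) * Xᴴ with hUdef
  have hU : InM M U := by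
    have h1 := H.trans (α := α) hz hd
    rw [smul_kronecker, ← lft_mul_rgt] at h1
    exact H.conj h1 hX
  have hUnp : ¬ IsPure U := H.conj_trans_not_pure hgood hab hX hnp hz0 hz hd0
  have hUww : ct α U w w = d • (A * Aᴴ) := by
    rw [hUdef, H.ct_conj, hw, zero_smul, zero_add, ← hA]
  have hr1 : ρ ≤ (A * Aᴴ).rank := by
    have := hmin U w w hU hUnp hw0 hw hw0 hw
    rwa [hUww, rank_smul_ne _ hd0] at this
  have hXnp : ¬ IsPure Xᴴ := fun ⟨g, k, hgk⟩ =>
    hnp ⟨gᴴ, kᴴ, by rw [← kron_conjTranspose, ← hgk, conjTranspose_conjTranspose]⟩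
  have hr2 : ρ ≤ (Aᴴ * A).rank := by
    have hM : InM M (1 + Xᴴ * (d • (lft α w * rgt α (star w))) * Xᴴᴴ) := by
      have h1 := H.trans (α := α) hw hd
      rw [smul_kronecker, ← lft_mul_rgt] at h1
      exact H.conj h1 (H.inv hX)
    have := hmin _ z z hM (H.conj_trans_not_pure hgood hab (H.inv hX) hXnp hw0 hw hd0) hz0 hz hz0 hz
    rwa [H.ct_conj, hz, zero_smul, zero_add, ← ct_conjTranspose, ← hA, conjTranspose_conjTranspose,
      rank_smul_ne _ hd0] at this
  have hrkA : A.rank = ρ := hrk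
  have hrkA' : Aᴴ.rank = ρ := (rank_conj A).trans hrkA
  have hrg1 : LinearMap.range (A * Aᴴ).mulVecLin = LinearMap.range A.mulVecLin := by
    refine Submodule.eq_of_le_of_finrank_le ?_ (hrkA.le.trans hr1)
    rintro _ ⟨x, rfl⟩
    exact ⟨Aᴴ *ᵥ x, by simp [Matrix.mulVec_mulVec]⟩
  have hrg2 : LinearMap.range (Aᴴ * A).mulVecLin = LinearMap.range Aᴴ.mulVecLin := by
    refine Submodule.eq_of_le_of_finrank_le ?_ (hrkA'.le.trans hr2)
    rintro _ ⟨x, rfl⟩
    exact ⟨A *ᵥ x, by simp [Matrix.mulVec_mulVec]⟩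
  -- parameters
  obtain ⟨w', hw', hww', hw'w⟩ := partner H.ns hw0 hw
  obtain ⟨W, hWdim, hWperp⟩ := finrank_perp ![w, w']
  let bs := Module.finBasis F W
  obtain ⟨ξ, hξ⟩ := H.ns
  let κ := (Fin (Module.finrank F W) × Bool) ⊕ Unit
  let vv : κ → Fin b → F :=
    Sum.elim (fun p => (if p.2 then ξ else 1) • ((bs p.1 : W) : Fin b → F)) (fun _ => 0)
  let γ : κ → F := Sum.elim (fun _ => 0) (fun _ => d)
  let Z : (Fin b → F) → F → Matrix α α F := fun η c =>
    ct α Xᴴ z η * A - Aᴴ * ct α X η z + c • (Aᴴ * A)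
  obtain ⟨B, C, hBC⟩ := exists_factor Aᴴ
  let Mt : κ → Matrix (Fin Aᴴ.rank) (Fin Aᴴ.rank) F := fun i => Bᴴ * Z (vv i) (γ i) * B
  have hγ : ∀ i, star (γ i) = -γ i := by
    rintro (p | u) <;> simp [γ, hd]
  have hMskew : ∀ i, (Mt i)ᴴ = -Mt i := by
    intro i
    have e : (Z (vv i) (γ i))ᴴ = -Z (vv i) (γ i) := by
      simp only [Z, conjTranspose_add, conjTranspose_sub, conjTranspose_mul, conjTranspose_smul,
        conjTranspose_conjTranspose, ct_conjTranspose, hγ]
      module
    simp only [Mt, conjTranspose_mul, conjTranspose_conjTranspose, e, Matrix.neg_mul, Matrix.mul_neg,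
      Matrix.mul_assoc]
  have hκ : Aᴴ.rank + 2 < Fintype.card κ := by
    have := H.four
    simp only [κ, Fintype.card_sum, Fintype.card_prod, Fintype.card_fin, Fintype.card_bool, Fintype.card_unit,
      hrkA'] at hWdim ⊢
    by_contra hlt
    obtain ⟨Y, u, v, hY, hYnp, hu0, hu, hv0, hv, hdet⟩ := H.exists_singular hgood (by omega) hX hnp
    have h1 := rank_lt_of_det _ hdet
    have h2 := hmin Y u v hY hYnp hu0 hu hv0 hv
    omega
  have hsd : ∀ x : κ → fixF F, star (d ^ Aᴴ.rank * (∑ i, (x i : F) • Mt i).det) =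
      d ^ Aᴴ.rank * (∑ i, (x i : F) • Mt i).det := by
    intro x
    set T := ∑ i, (x i : F) • Mt i
    have e : Tᴴ = -T := by
      simp only [T, conjTranspose_sum, conjTranspose_smul, hMskew, fix_star, smul_neg, Finset.sum_neg_distrib]
    rw [star_mul', star_pow, hd, ← det_conjTranspose, e, det_neg, Fintype.card_fin, ← mul_assoc, ← mul_pow]
    simp
  obtain ⟨x, hx0, hcnorm, hdet⟩ := exists_zero (m := Fin b) H.ns (by omega) hκ vv γ Mt (pow_ne_zero _ hd0) hsd
  set η := ∑ i, (x i : F) • vv i with hη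
  set c := ∑ i, (x i : F) * γ i with hcdef
  have hMsum : ∑ i, (x i : F) • Mt i = Bᴴ * Z η c * B := by
    have e : ∑ i, (x i : F) • Z (vv i) (γ i) = Z η c := by
      have l1 : ct α Xᴴ z η = ∑ i, (x i : F) • ct α Xᴴ z (vv i) := by
        let f : (Fin b → F) →ₗ[F] Matrix α α F :=
          { toFun := fun u => ct α Xᴴ z u
            map_add' := fun u u' => ct_add_right _ _ _ _
            map_smul' := fun a u => ct_smul_right _ _ _ _ }
        change f η = _
        rw [hη, map_sum]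
        exact Finset.sum_congr rfl fun i _ => f.map_smul _ _
      have l2 : ct α X η z = ∑ i, (x i : F) • ct α X (vv i) z := by
        let f : (Fin b → F) →+ Matrix α α F := AddMonoidHom.mk' (fun u => ct α X u z) fun u u' => ct_add_left _ _ _ _
        change f η = _
        rw [hη, map_sum]
        refine Finset.sum_congr rfl fun i _ => ?_
        change ct α X ((x i : F) • vv i) z = _
        rw [ct_smul_left, fix_star]
      simp only [Z, l1, l2, hcdef, Finset.sum_mul, Finset.mul_sum, Finset.sum_smul, ← Finset.sum_sub_distrib,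
        ← Finset.sum_add_distrib, Matrix.sum_mul, Matrix.mul_sum, Matrix.smul_mul, Matrix.mul_smul]
      exact Finset.sum_congr rfl fun i _ => by module
    simp only [Mt, ← e, Matrix.mul_sum, Matrix.sum_mul, Matrix.mul_smul, Matrix.smul_mul]
  rw [hMsum] at hdet
  have hηW : η ∈ W := by
    refine Submodule.sum_mem _ fun i _ => Submodule.smul_mem _ _ ?_
    rcases i with p | u
    · exact W.smul_mem _ (bs p.1).2
    · exact W.zero_mem
  have hwη : sp w η = 0 := hWperp η hηW 0
  have hw'η : sp w' η = 0 := hWperp η hηW 1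
  have hN : nil w η c ≠ 0 := by
    intro h0
    have h1 := congrArg (· *ᵥ w') h0
    simp only [nil, add_mulVec, sub_mulVec, smul_mulVec, vmv_mulVec, hww', sp_zero_comm.1 hw'η, zero_mulVec,
      zero_smul, sub_zero, one_smul] at h1
    have hc0 : c = 0 := by
      have := congrArg (sp w') h1
      rwa [sp_add_right, sp_smul_right, hw'η, hw'w, sp_zero_right, zero_add, mul_one] at this
    rw [hc0, zero_smul, add_zero] at h1
    refine hx0 (funext fun i => Subtype.ext ?_)
    have hl : ∀ p : Fin (Module.finrank F W), (x (Sum.inl (p, false)) : F) + (x (Sum.inl (p, true)) : F) * ξ = 0 := by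
      have e : η = ((∑ p, ((x (Sum.inl (p, false)) : F) + (x (Sum.inl (p, true)) : F) * ξ) • bs p : W) : Fin b → F) := by
        simp only [hη, κ, vv, Fintype.sum_sum_type, Fintype.sum_prod_type, Fintype.univ_bool, Sum.elim_inl,
          Sum.elim_inr, smul_zero, Finset.sum_const_zero, add_zero, Submodule.coe_sum, SetLike.val_smul, Submodule.coe_add,
          Finset.sum_insert, Finset.sum_singleton, Finset.mem_singleton, Bool.true_eq_false, not_false_eq_true,
          ↓reduceIte, Bool.false_eq_true, one_smul, smul_smul, add_smul]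
        exact Finset.sum_congr rfl fun p _ => by module
      rw [h1] at e
      exact Fintype.linearIndependent_iff.1 bs.linearIndependent _ (Subtype.ext e.symm)
    rcases i with ⟨p, bb⟩ | u
    · have h2 := hl p
      have h3 := congrArg star h2
      rw [star_add, star_mul', fix_star, fix_star, star_zero] at h3
      have h4 : (x (Sum.inl (p, true)) : F) = 0 := (mul_eq_zero.1
        (show (x (Sum.inl (p, true)) : F) * (star ξ - ξ) = 0 by linear_combination h3 - h2)).resolve_right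
        (sub_ne_zero.2 hξ)
      rcases bb with _ | _
      · simpa [h4] using h2
      · simpa using h4
    · have h2 : (x (Sum.inr u) : F) * d = 0 := by
        rw [← hc0, hcdef]
        simp [κ, γ, Fintype.sum_sum_type]
      simpa using (mul_eq_zero.1 h2).resolve_right hd0
  -- the second conjugate
  set N := nil w η c with hNdef
  set R := 1 + U * ((1 : Matrix α α F) ⊗ₖ N) * Uᴴ with hR
  have hRM : InM M R := H.conj (H.root hw hwη hcnorm) hU
  have hfull : (∀ x : Fin b → F, x ≠ 0 → sp x x = 0 → IsUnit (ct α U x w).det) ∨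
      (∃ a0 : α → F, a0 ≠ 0 ∧ (U * lft α w) *ᵥ a0 = lft α w *ᵥ a0 ∧
        ∀ v : α → F, ∃ v₁ v₂ : α → F, v = v₁ + v₂ ∧ (U * lft α w) *ᵥ v₁ = lft α w *ᵥ v₁ ∧
          ∃ y, ct α U w w *ᵥ y = v₂) := by
    have hfixed : ∀ v : α → F, Aᴴ *ᵥ v = 0 → (U * lft α w) *ᵥ v = lft α w *ᵥ v := by
      intro v hv
      have e : X * (d • (lft α z * rgt α (star z))) * Xᴴ * lft α w = d • (X * lft α z * Aᴴ) := by
        rw [hA, ct_conjTranspose, ct, Matrix.mul_smul, Matrix.smul_mul, Matrix.smul_mul]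
        simp only [Matrix.mul_assoc]
      rw [hUdef, Matrix.add_mul, Matrix.one_mul, e, add_mulVec, smul_mulVec, ← mulVec_mulVec, hv, mulVec_zero,
        smul_zero, add_zero]
    rcases eq_or_ne Aᴴ.det 0 with hdetA | hdetA
    · obtain ⟨a0, ha0, hAa⟩ := (Matrix.exists_mulVec_eq_zero_iff (M := Aᴴ)).2 hdetA
      refine Or.inr ⟨a0, ha0, hfixed a0 hAa, fun v => ?_⟩
      obtain ⟨y', hy'⟩ : Aᴴ *ᵥ v ∈ LinearMap.range (Aᴴ * A).mulVecLin := by rw [hrg2]; exact ⟨v, rfl⟩
      obtain ⟨y₂, hy₂⟩ : A *ᵥ y' ∈ LinearMap.range (A * Aᴴ).mulVecLin := by rw [hrg1]; exact ⟨y', rfl⟩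
      refine ⟨v - A *ᵥ y', A *ᵥ y', (sub_add_cancel _ _).symm, hfixed _ ?_, d⁻¹ • y₂, ?_⟩
      · rw [mulVec_sub, mulVec_mulVec]
        exact sub_eq_zero.2 hy'.symm
      · rw [hUww, smul_mulVec, mulVec_smul, smul_smul, mul_inv_cancel₀ hd0, one_smul]
        exact hy₂
    · refine Or.inl fun x hx0' hxx => ?_
      rw [isUnit_iff_ne_zero]
      intro h0
      have h1 := rank_lt_of_det _ h0
      have h2 := hmin U x w hU hUnp hx0' hxx hw0 hw
      have h3 : ρ = Fintype.card α := by
        rw [← hrkA']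
        exact Matrix.rank_of_isUnit _ ((Matrix.isUnit_iff_isUnit_det _).2 (Ne.isUnit hdetA))
      omega
  have hRnp : ¬ IsPure R := H.conj_root_not_pure hgood hU hUnp hw0 hw hwη hcnorm hN hfull
  have hRww : ct α R w w = (-(d * d)) • (A * Z η c * Aᴴ) := by
    have eU1 : ct α U w η = d • (A * ct α Xᴴ z η) := by
      rw [hUdef, H.ct_conj, hwη, zero_smul, zero_add, ← hA, ct_conjTranspose]
    have eN : (1 : Matrix α α F) ⊗ₖ N = lft α η * rgt α (star w) - lft α w * rgt α (star η) +
        lft α w * (c • (1 : Matrix α α F)) * rgt α (star w) := by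
      have := root_el (α := α) w η c
      rw [el, lft_conjTranspose, ← hNdef, add_sub_assoc, add_assoc] at this
      exact add_left_cancel this
    rw [hR, ct_add, ct_one, hw, zero_smul, zero_add, eN]
    have e2 : ct α (U * (lft α η * rgt α (star w) - lft α w * rgt α (star η) +
        lft α w * (c • (1 : Matrix α α F)) * rgt α (star w)) * Uᴴ) w w =
        ct α U w η * (ct α U w w)ᴴ - ct α U w w * (ct α U w η)ᴴ + c • (ct α U w w * (ct α U w w)ᴴ) := by
      simp only [ct, conjTranspose_mul, rgt_conjTranspose, lft_conjTranspose, Matrix.mul_add, Matrix.add_mul,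
        Matrix.mul_sub, Matrix.sub_mul, Matrix.mul_smul, Matrix.smul_mul, Matrix.mul_one, Matrix.mul_assoc]
    rw [e2, eU1, hUww]
    simp only [Z, conjTranspose_smul, conjTranspose_mul, conjTranspose_conjTranspose, hd, Matrix.smul_mul,
      Matrix.mul_smul, smul_smul, Matrix.mul_add, Matrix.add_mul, Matrix.mul_sub, Matrix.sub_mul, ct_conjTranspose,
      Matrix.mul_assoc]
    module
  have hlt : (ct α R w w).rank < ρ := by
    rw [hRww, rank_smul_ne _ (neg_ne_zero.2 (mul_ne_zero hd0 hd0))]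
    have hA' : A = Cᴴ * Bᴴ := by rw [← conjTranspose_mul, ← hBC, conjTranspose_conjTranspose]
    have e : A * Z η c * Aᴴ = Cᴴ * (Bᴴ * Z η c * B) * C := by
      refine (congrArg₂ (fun P Q => P * Z η c * Q) hA' hBC).trans ?_
      simp only [Matrix.mul_assoc]
    rw [e]
    calc (Cᴴ * (Bᴴ * Z η c * B) * C).rank ≤ (Cᴴ * (Bᴴ * Z η c * B)).rank := Matrix.rank_mul_le_left _ _
      _ ≤ (Bᴴ * Z η c * B).rank := Matrix.rank_mul_le_right _ _
      _ < Fintype.card (Fin Aᴴ.rank) := rank_lt_of_det _ hdet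
      _ = ρ := by rw [Fintype.card_fin, hrkA']
  exact absurd (hmin R w w hRM hRnp hw0 hw hw0 hw) (not_le.2 hlt)

end Cfsg.Agent.H99.TensorU
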