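import Cfsg.Agent.H99.TensorU.Layer

/-!
When the layers are scalar: an element whose contraction along isotropic vectors vanishes is a pure tensor.
-/

set_option autoImplicit false
set_option linter.unusedSectionVars false

namespace Cfsg.Agent.H99.TensorU

open Matrix Tensor
open scoped Kronecker

variable {F : Type*} [Field F] [StarRing F] [Finite F] {α : Type} [Fintype α] [DecidableEq α] {b : ℕ}

local notation "Ix" => α × Fin b

/-- An element of the unipotent radical attached to an isotropic vector. -/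
def el (z : Fin b → F) (A : Matrix Ix α F) (G : Matrix α α F) : Matrix Ix Ix F :=
  1 + A * rgt α (star z) - lft α z * Aᴴ + lft α z * G * rgt α (star z)

theorem el_mul {z : Fin b → F} (hz : sp z z = 0) {A A' : Matrix Ix α F} (G G' : Matrix α α F)
    (hA : rgt α (star z) * A = 0) (hA' : rgt α (star z) * A' = 0) :
    el z A G * el z A' G' = el z (A + A') (G + G' - Aᴴ * A') := by
  have h1 : rgt α (star z) * lft α z = 0 := by rw [rgt_mul_lft]; exact (congrArg (· • _) hz).trans (zero_smul _ _)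
  have h2 : Aᴴ * lft α z = 0 := by
    have := congrArg Matrix.conjTranspose hA
    rwa [conjTranspose_mul, rgt_conjTranspose, conjTranspose_zero] at this
  have l1 : ∀ T : Matrix α Ix F, rgt α (star z) * (A' * T) = 0 := fun T => by
    rw [← Matrix.mul_assoc, hA', Matrix.zero_mul]
  have l2 : ∀ T : Matrix α Ix F, rgt α (star z) * (lft α z * T) = 0 := fun T => by
    rw [← Matrix.mul_assoc, h1, Matrix.zero_mul]
  have l3 : ∀ T : Matrix α Ix F, Aᴴ * (lft α z * T) = 0 := fun T => by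
    rw [← Matrix.mul_assoc, h2, Matrix.zero_mul]
  simp only [el, Matrix.mul_add, Matrix.add_mul, Matrix.mul_sub, Matrix.sub_mul, Matrix.mul_one, Matrix.one_mul,
    Matrix.mul_assoc, l1, l2, l3, Matrix.mul_zero, conjTranspose_add, Matrix.mul_neg, Matrix.neg_mul]
  abel

theorem el_scalar (z : Fin b → F) (G : Matrix α α F) :
    el z 0 G = 1 + G ⊗ₖ vecMulVec z (star z) := by
  rw [el, conjTranspose_zero, Matrix.zero_mul, Matrix.mul_zero, add_zero, sub_zero, lft_mid_rgt]

theorem root_el (z η : Fin b → F) (c : F) :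
    1 + (1 : Matrix α α F) ⊗ₖ nil z η c = el z (lft α η) (c • 1) := by
  rw [el, lft_conjTranspose, lft_mul_rgt, lft_mul_rgt, lft_mid_rgt, nil, kronecker_add, sub_eq_add_neg,
    kronecker_add, kronecker_smul, smul_kronecker, ← neg_one_smul F (vecMulVec z (star η)), kronecker_smul,
    neg_one_smul]
  abel

variable {M : Subgroup (GL (α × Fin b) F)} (H : Over M) (hgood : Good M)
include H hgood

theorem Over.good_el {z : Fin b → F} (hz0 : z ≠ 0) (hz : sp z z = 0) {G : Matrix α α F} (h : InM M (el z 0 G)) :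
    ∃ c : F, G = c • (1 : Matrix α α F) :=
  hgood z G hz0 hz (by rwa [el_scalar] at h)

/-- The middle part of an element of the unipotent radical comes from the second factor. -/
theorem Over.el_contract {z : Fin b → F} (hz0 : z ≠ 0) (hz : sp z z = 0) {A : Matrix Ix α F} {G : Matrix α α F}
    (hA : rgt α (star z) * A = 0) (h : InM M (el z A G)) {η : Fin b → F} (hη : sp z η = 0) :
    ∃ c : F, rgt α (star η) * A = c • (1 : Matrix α α F) := by
  obtain ⟨d, hd0, hd⟩ := exists_skew H.ns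
  have key : ∀ η : Fin b → F, sp z η = 0 →
      ∃ c : F, rgt α (star η) * A - Aᴴ * lft α η = c • (1 : Matrix α α F) := by
    intro η hη
    obtain ⟨t, ht⟩ := exists_trace H.ns (a := -(sp η η)) (by rw [star_neg, sp_star])
    have hR := H.root (c := t) hz hη (by linear_combination ht)
    rw [root_el] at hR
    have hlη : rgt α (star z) * lft α η = 0 := by
      rw [rgt_mul_lft]; exact (congrArg (· • _) hη).trans (zero_smul _ _)
    have h1 := h.mul hR
    have h2 := hR.mul h
    rw [el_mul hz G (t • 1) hA hlη] at h1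
    rw [el_mul hz (t • 1) G hlη hA, add_comm (lft α η) A] at h2
    set D := rgt α (star η) * A - Aᴴ * lft α η with hD
    have hfac : el z (A + lft α η) (G + t • 1 - Aᴴ * lft α η) =
        el z 0 D * el z (A + lft α η) (t • 1 + G - (lft α η)ᴴ * A) := by
      rw [el_mul hz _ _ (Matrix.mul_zero _) (by rw [Matrix.mul_add, hA, hlη, add_zero]), zero_add,
        conjTranspose_zero, Matrix.zero_mul, sub_zero, hD, lft_conjTranspose]
      congr 1
      abel
    refine H.good_el hgood hz0 hz ?_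
    have := h1.mul (H.inv h2)
    rwa [hfac, Matrix.mul_assoc, H.unit h2, Matrix.mul_one] at this
  obtain ⟨ξ, hξ⟩ := H.ns
  obtain ⟨c₁, h1⟩ := key η hη
  obtain ⟨c₂, h2⟩ := key (ξ • η) (by rw [sp_smul_right, hη, mul_zero])
  rw [rgt_star_smul, lft_smul, Matrix.smul_mul, Matrix.mul_smul] at h2
  refine ⟨(c₂ - ξ * c₁) / (star ξ - ξ), ?_⟩
  have h3 : (star ξ - ξ) • (rgt α (star η) * A) = (c₂ - ξ * c₁) • (1 : Matrix α α F) := by
    calc (star ξ - ξ) • (rgt α (star η) * A)
        = (star ξ • (rgt α (star η) * A) - ξ • (Aᴴ * lft α η)) -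
          ξ • (rgt α (star η) * A - Aᴴ * lft α η) := by module
      _ = _ := by rw [h1, h2]; module
  rw [div_eq_inv_mul, mul_smul, ← h3, smul_smul, inv_mul_cancel₀ (sub_ne_zero.2 hξ), one_smul]

/-- The middle part decomposes. -/
theorem Over.el_decomp {z : Fin b → F} (hz0 : z ≠ 0) (hz : sp z z = 0) {A : Matrix Ix α F} {c : F}
    (hA : rgt α (star z) * A = 0) (h : InM M (el z A (c • 1))) :
    ∃ (u : Fin b → F) (K : Matrix α α F) (s : F),
      A = lft α u + lft α z * K ∧ K - Kᴴ = s • (1 : Matrix α α F) := by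
  obtain ⟨z', hz', h1, h2⟩ := partner H.ns hz0 hz
  set K := rgt α (star z') * A with hK
  obtain ⟨u, hu⟩ := eq_lft (A - lft α z * K) fun φ => by
    set μ₀ := star φ - sp z (star φ) • z' with hμ₀
    have hμz : sp z μ₀ = 0 := by rw [hμ₀, sp_sub_right, sp_smul_right, h1]; ring
    obtain ⟨e, he⟩ := H.el_contract hgood hz0 hz hA h hμz
    refine ⟨e, ?_⟩
    have e1 : φ ⬝ᵥ z = star (sp z (star φ)) := by rw [sp_star, sp, star_star]
    have e2 : rgt α (star μ₀) = rgt α φ + (-(φ ⬝ᵥ z)) • rgt α (star z') := by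
      rw [hμ₀, sub_eq_add_neg, ← neg_smul, star_add, star_star, rgt_add, rgt_star_smul, star_neg, e1]
    rw [← he, e2, hK, Matrix.mul_sub, ← Matrix.mul_assoc, rgt_mul_lft, Matrix.add_mul, Matrix.smul_mul,
      Matrix.smul_mul, Matrix.one_mul, neg_smul, sub_eq_add_neg]
  have hsum : A = lft α u + lft α z * K := eq_add_of_sub_eq hu
  rcases isEmpty_or_nonempty α with hα | ⟨⟨i⟩⟩
  · exact ⟨u, K, 0, hsum, by ext a; exact isEmptyElim a⟩
  have hu0 : sp z u = 0 := by
    have := congrArg (rgt α (star z) * ·) hu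
    rw [Matrix.mul_sub, hA, ← Matrix.mul_assoc, rgt_mul_lft, rgt_mul_lft] at this
    have hzz : star z ⬝ᵥ z = 0 := hz
    rw [hzz, zero_smul, Matrix.zero_mul, sub_zero] at this
    simpa [sp] using (congrFun (congrFun this i) i).symm
  obtain ⟨t, ht⟩ := exists_trace H.ns (a := -(sp (-u) (-u))) (by rw [star_neg, sp_star])
  have hu0' : sp z (-u) = 0 := by rw [sp_neg_right, hu0, neg_zero]
  have hR := H.root (c := t) hz hu0' (by linear_combination ht)
  rw [root_el] at hR
  have hlu : rgt α (star z) * lft α (-u) = 0 := by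
    rw [rgt_mul_lft]; exact (congrArg (· • _) hu0').trans (zero_smul _ _)
  have h3 := h.mul hR
  rw [el_mul hz (c • 1) (t • 1) hA hlu] at h3
  have e1 : Aᴴ * lft α (-u) = (sp u (-u)) • (1 : Matrix α α F) := by
    rw [hsum, conjTranspose_add, conjTranspose_mul, lft_conjTranspose, lft_conjTranspose, Matrix.add_mul,
      Matrix.mul_assoc, rgt_mul_lft, hlu, Matrix.mul_zero, add_zero, sp]
  have e2 : A + lft α (-u) = lft α z * K := by
    rw [hsum, add_right_comm, ← lft_add, add_neg_cancel, lft_zero, zero_add]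
  rw [e1, e2] at h3
  have e3 : el z (lft α z * K) (c • (1 : Matrix α α F) + t • 1 - sp u (-u) • 1) =
      el z 0 ((K - Kᴴ) + (c + t - sp u (-u)) • 1) := by
    simp only [el, conjTranspose_mul, lft_conjTranspose, conjTranspose_zero, Matrix.mul_add, Matrix.add_mul,
      Matrix.mul_sub, Matrix.sub_mul, Matrix.mul_assoc, Matrix.zero_mul, Matrix.mul_zero, add_smul, sub_smul]
    abel
  rw [e3] at h3
  obtain ⟨s, hs⟩ := H.good_el hgood hz0 hz h3
  exact ⟨u, K, s - (c + t - sp u (-u)), hsum, by rw [sub_smul, ← hs]; abel⟩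

/-- The middle part of an element whose multiples occur comes from the second factor. -/
theorem Over.el_std {z : Fin b → F} (hz0 : z ≠ 0) (hz : sp z z = 0) {A : Matrix Ix α F} {c c' ξ : F}
    (hA : rgt α (star z) * A = 0) (hξ : star ξ ≠ ξ) (h : InM M (el z A (c • 1)))
    (h' : InM M (el z (ξ • A) (c' • 1))) : ∃ u : Fin b → F, A = lft α u := by
  rcases isEmpty_or_nonempty α with hα | ⟨⟨i⟩⟩
  · exact ⟨0, by ext p; exact isEmptyElim p.1⟩
  obtain ⟨u, K, s, hu, hs⟩ := H.el_decomp hgood hz0 hz hA h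
  obtain ⟨u', K', s', hu', hs'⟩ := H.el_decomp hgood hz0 hz (A := ξ • A)
    (by rw [Matrix.mul_smul, hA, smul_zero]) h'
  obtain ⟨z', hz', h1, h2⟩ := partner H.ns hz0 hz
  have h2' : star z' ⬝ᵥ z = 1 := h2
  have eK := congrArg (rgt α (star z') * ·) hu
  have eK' := congrArg (rgt α (star z') * ·) hu'
  simp only [Matrix.mul_add, ← Matrix.mul_assoc, rgt_mul_lft, h2', one_smul, Matrix.one_mul] at eK eK'
  set κ := star z' ⬝ᵥ u
  set κ' := star z' ⬝ᵥ u'
  rw [Matrix.mul_smul, eK] at eK'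
  have hK' : K' = ξ • K + (ξ * κ - κ') • (1 : Matrix α α F) :=
    add_left_cancel (a := κ' • (1 : Matrix α α F)) (by rw [← eK']; module)
  rw [hK', conjTranspose_add, conjTranspose_smul, conjTranspose_smul, conjTranspose_one] at hs'
  have h3 : (ξ - star ξ) • K = (s' - (ξ * κ - κ') + star (ξ * κ - κ') - star ξ * s) • (1 : Matrix α α F) := by
    calc (ξ - star ξ) • K
        = (ξ • K + (ξ * κ - κ') • 1 - (star ξ • Kᴴ + star (ξ * κ - κ') • 1)) -
          (ξ * κ - κ') • 1 + star (ξ * κ - κ') • 1 - star ξ • (K - Kᴴ) := by module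
      _ = _ := by rw [hs', hs]; module
  obtain ⟨k, hk⟩ : ∃ k : F, K = k • (1 : Matrix α α F) :=
    ⟨(s' - (ξ * κ - κ') + star (ξ * κ - κ') - star ξ * s) / (ξ - star ξ), by
      rw [div_eq_inv_mul, mul_smul, ← h3, smul_smul, inv_mul_cancel₀ (sub_ne_zero.2 (Ne.symm hξ)), one_smul]⟩
  exact ⟨u + k • z, by rw [hu, hk, Matrix.mul_smul, Matrix.mul_one, lft_add, lft_smul]⟩

/-- An element mapping a layer to a layer maps the neighbouring layers to layers. -/
theorem Over.layer_image {z z₂ : Fin b → F} (hz0 : z ≠ 0) (hz : sp z z = 0) (hz₂0 : z₂ ≠ 0)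
    (hz₂ : sp z₂ z₂ = 0) {X : Matrix Ix Ix F} (hX : InM M X) {h : Matrix α α F} (hh : X * lft α z = lft α z₂ * h)
    (hdet : IsUnit h.det) {η : Fin b → F} (hη : sp z η = 0) :
    ∃ u : Fin b → F, X * lft α η = lft α u * h := by
  rcases isEmpty_or_nonempty α with hα | ⟨⟨i⟩⟩
  · exact ⟨0, by ext p; exact isEmptyElim p.1⟩
  have : Nonempty α := ⟨i⟩
  obtain ⟨d, hd0, hd⟩ := exists_skew H.ns
  have hh' : hᴴ * rgt α (star z₂) = rgt α (star z) * Xᴴ := by
    have := congrArg Matrix.conjTranspose hh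
    rw [conjTranspose_mul, conjTranspose_mul, lft_conjTranspose, lft_conjTranspose] at this
    exact this.symm
  -- a scalar product
  obtain ⟨μ, hμ⟩ : ∃ μ : F, d • (h * hᴴ) = μ • (1 : Matrix α α F) := by
    have h1 := H.trans (α := α) hz hd
    rw [smul_kronecker, ← lft_mul_rgt] at h1
    have h2 := H.conj h1 hX
    refine hgood z₂ _ hz₂0 hz₂ ?_
    convert h2 using 2
    rw [← lft_mid_rgt, Matrix.mul_smul, Matrix.smul_mul, Matrix.mul_smul, Matrix.smul_mul, ← Matrix.mul_assoc X, hh,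
      Matrix.mul_assoc _ (rgt α (star z)), ← hh']
    simp only [Matrix.mul_assoc]
  have hhh : h * hᴴ = (μ / d) • (1 : Matrix α α F) := by
    rw [div_eq_inv_mul, mul_smul, ← hμ, smul_smul, inv_mul_cancel₀ hd0, one_smul]
  have hhu : IsUnit hᴴ.det := by rw [det_conjTranspose]; exact hdet.star
  have hμ0 : μ / d ≠ 0 := by
    intro h0
    have := congrArg Matrix.det hhh
    rw [h0, zero_smul, det_mul, det_zero] at this
    exact (hdet.mul hhu).ne_zero this
  have hA : ∀ η, sp z η = 0 → rgt α (star z₂) * (X * lft α η * hᴴ) = 0 := by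
    intro η hη
    have e : hᴴ * (rgt α (star z₂) * (X * lft α η * hᴴ)) = 0 := by
      rw [← Matrix.mul_assoc, hh', Matrix.mul_assoc, ← Matrix.mul_assoc Xᴴ, ← Matrix.mul_assoc Xᴴ, H.unit' hX,
        Matrix.one_mul, ← Matrix.mul_assoc, rgt_mul_lft]
      exact (congrArg (fun s : F => s • (1 : Matrix α α F) * hᴴ) hη).trans (by simp)
    have := congrArg ((hᴴ)⁻¹ * ·) e
    rwa [← Matrix.mul_assoc, Matrix.nonsing_inv_mul _ hhu, Matrix.one_mul, Matrix.mul_zero] at this
  have hel : ∀ η, sp z η = 0 → ∃ c : F, InM M (el z₂ (X * lft α η * hᴴ) (c • 1)) := by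
    intro η hη
    obtain ⟨t, ht⟩ := exists_trace H.ns (a := -(sp η η)) (by rw [star_neg, sp_star])
    have h1 := H.root (α := α) (c := t) hz hη (by linear_combination ht)
    refine ⟨t * (μ / d), ?_⟩
    set N := (1 : Matrix α α F) ⊗ₖ nil z η t with hN
    have h2 := H.conj h1 hX
    convert h2 using 1
    have e : N = lft α η * rgt α (star z) - lft α z * rgt α (star η) + lft α z * (t • (1 : Matrix α α F)) *
        rgt α (star z) := by
      have := root_el (α := α) z η t
      rw [el, lft_conjTranspose, ← hN, add_sub_assoc, add_assoc] at this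
      exact add_left_cancel this
    rw [e, el, mul_smul, ← hhh, conjTranspose_mul, conjTranspose_mul, conjTranspose_conjTranspose, lft_conjTranspose]
    simp only [Matrix.mul_add, Matrix.add_mul, Matrix.mul_sub, Matrix.sub_mul, Matrix.mul_smul, Matrix.smul_mul,
      Matrix.mul_one]
    simp only [← Matrix.mul_assoc, hh]
    simp only [Matrix.mul_assoc, ← hh']
    abel
  obtain ⟨ξ, hξ⟩ := H.ns
  obtain ⟨c, hc⟩ := hel η hη
  obtain ⟨c', hc'⟩ := hel (ξ • η) (by rw [sp_smul_right, hη, mul_zero])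
  rw [lft_smul, Matrix.mul_smul, Matrix.smul_mul] at hc'
  obtain ⟨u, hu⟩ := H.el_std hgood hz₂0 hz₂ (hA η hη) hξ hc hc'
  refine ⟨(μ / d)⁻¹ • u, ?_⟩
  have hhh' : hᴴ * h = (μ / d) • (1 : Matrix α α F) := by
    have e : ((μ / d)⁻¹ • hᴴ) * h = 1 := mul_eq_one_comm.1 (by
      rw [Matrix.mul_smul, hhh, smul_smul, inv_mul_cancel₀ hμ0, one_smul])
    rw [Matrix.smul_mul] at e
    rw [← e, smul_smul, mul_inv_cancel₀ hμ0, one_smul]
  calc X * lft α η = (μ / d)⁻¹ • (X * lft α η * hᴴ * h) := by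
        rw [Matrix.mul_assoc (X * lft α η), hhh', Matrix.mul_smul, Matrix.mul_one, smul_smul, inv_mul_cancel₀ hμ0,
          one_smul]
    _ = _ := by rw [hu, lft_smul, Matrix.smul_mul]

/-- An element mapping a layer to a layer is a pure tensor. -/
theorem Over.pure_of_layer {z z₂ : Fin b → F} (hz0 : z ≠ 0) (hz : sp z z = 0) (hz₂0 : z₂ ≠ 0)
    (hz₂ : sp z₂ z₂ = 0) {X : Matrix Ix Ix F} (hX : InM M X) {h : Matrix α α F} (hh : X * lft α z = lft α z₂ * h)
    (hdet : IsUnit h.det) : IsPure X := by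
  rcases isEmpty_or_nonempty α with hα | ⟨⟨i⟩⟩
  · exact ⟨1, 1, by ext p; exact isEmptyElim p.1⟩
  have : Nonempty α := ⟨i⟩
  obtain ⟨z', hz', h1, h2⟩ := partner H.ns hz0 hz
  obtain ⟨η₀, hη₀0, hη₀, hp⟩ := exists_iso_perp H.ns ![z, z'] (by rw [Fintype.card_fin]; have := H.four; omega)
  have hzη : sp z η₀ = 0 := hp 0
  have hz'η : sp η₀ z' = 0 := sp_zero_comm.1 (hp 1)
  obtain ⟨f₀, hf₀⟩ := H.layer_image hgood hz0 hz hz₂0 hz₂ hX hh hdet hzη
  have hf₀0 : f₀ ≠ 0 := by
    intro h0
    rw [h0, lft_zero, Matrix.zero_mul] at hf₀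
    have := congrArg (Xᴴ * ·) hf₀
    rw [← Matrix.mul_assoc, H.unit' hX, Matrix.one_mul, Matrix.mul_zero] at this
    obtain ⟨k, hk⟩ := Function.ne_iff.1 hη₀0
    exact hk (by simpa [lft_apply] using congrFun (congrFun this (i, k)) i)
  have hf₀f : sp f₀ f₀ = 0 := by
    have e := congrArg (fun T : Matrix Ix α F => Tᴴ * T) hf₀
    simp only [conjTranspose_mul, lft_conjTranspose, Matrix.mul_assoc] at e
    rw [← Matrix.mul_assoc Xᴴ, H.unit' hX, Matrix.one_mul, rgt_mul_lft, ← Matrix.mul_assoc (rgt α (star f₀)),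
      rgt_mul_lft, Matrix.smul_mul, Matrix.one_mul, Matrix.mul_smul] at e
    have e0 : star η₀ ⬝ᵥ η₀ = 0 := hη₀
    rw [e0, zero_smul] at e
    by_contra hne
    have e2 : hᴴ * h = 0 := (smul_eq_zero.1 e.symm).resolve_left hne
    have := congrArg Matrix.det e2
    rw [det_mul, det_conjTranspose, det_zero] at this
    exact ((hdet.star).mul hdet).ne_zero this
  have hall : ∀ v : Fin b → F, ∃ u : Fin b → F, X * lft α v = lft α u * h := by
    intro v
    obtain ⟨u₁, hu₁⟩ := H.layer_image hgood hz0 hz hz₂0 hz₂ hX hh hdet (η := v - sp z v • z')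
      (by rw [sp_sub_right, sp_smul_right, h1]; ring)
    obtain ⟨u₂, hu₂⟩ := H.layer_image hgood hη₀0 hη₀ hf₀0 hf₀f hX hf₀ hdet (η := sp z v • z')
      (by rw [sp_smul_right, hz'η, mul_zero])
    refine ⟨u₁ + u₂, ?_⟩
    rw [lft_add, Matrix.add_mul, ← hu₁, ← hu₂, ← Matrix.mul_add, ← lft_add, sub_add_cancel]
  choose f hf using hall
  refine ⟨h, Matrix.of fun k l => f (Pi.single l 1) k, ?_⟩
  ext ⟨j, k⟩ ⟨i', l⟩
  have e := congrFun (congrFun (hf (Pi.single l 1)) (j, k)) i'
  rw [mul_lft_single] at e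
  rw [e]
  simp only [Matrix.mul_apply, lft_apply, kroneckerMap_apply, Matrix.of_apply]
  rw [Finset.sum_eq_single j (fun c _ hc => by simp [Ne.symm hc]) (by simp)]
  simp [mul_comm]

/-- Contractions of elements that are not pure do not vanish. -/
theorem Over.ct_ne {X : Matrix Ix Ix F} (hX : InM M X) (hnp : ¬ IsPure X) {x₁ z : Fin b → F} (hx0 : x₁ ≠ 0)
    (hx : sp x₁ x₁ = 0) (hz0 : z ≠ 0) (hz : sp z z = 0) : ct α X x₁ z ≠ 0 := by
  intro hzero
  rcases isEmpty_or_nonempty α with hα | ⟨⟨i⟩⟩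
  · exact hnp ⟨1, 1, by ext p; exact isEmptyElim p.1⟩
  have : Nonempty α := ⟨i⟩
  obtain ⟨d, hd0, hd⟩ := exists_skew H.ns
  set K := rgt α (star x₁) * X with hK
  have hKz : K * lft α z = 0 := hzero
  have hXKt : Xᴴ * lft α x₁ = Kᴴ := by rw [hK, conjTranspose_mul, rgt_conjTranspose]
  have hKK : K * Kᴴ = 0 := by
    rw [← hXKt, hK, Matrix.mul_assoc, ← Matrix.mul_assoc X, H.unit hX, Matrix.one_mul, rgt_mul_lft]
    exact (congrArg (· • _) hx).trans (zero_smul _ _)
  have hKinj : ∀ T : Matrix α α F, Kᴴ * T = 0 → T = 0 := fun T hT => by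
    have e := congrArg (X * ·) hT
    rw [← hXKt, ← Matrix.mul_assoc, ← Matrix.mul_assoc, H.unit hX, Matrix.one_mul, Matrix.mul_zero] at e
    exact lft_injective hx0 (e.trans (Matrix.mul_zero _).symm)
  set S := (1 : Matrix Ix Ix F) + d • (Kᴴ * K) with hS
  have hSM : InM M S := by
    have h1 := H.trans (α := α) hx hd
    rw [smul_kronecker, ← lft_mul_rgt] at h1
    have h2 := H.conj h1 (H.inv hX)
    convert h2 using 1
    rw [hS, ← hXKt, hK, conjTranspose_conjTranspose, Matrix.mul_smul, Matrix.smul_mul]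
    simp only [Matrix.mul_assoc]
  have hSz : S * lft α z = lft α z * (1 : Matrix α α F) := by
    rw [hS, Matrix.add_mul, Matrix.one_mul, Matrix.mul_one, Matrix.smul_mul, Matrix.mul_assoc, hKz,
      Matrix.mul_zero, smul_zero, add_zero]
  have hkey : ∀ η η' : Fin b → F, sp z η = 0 → ∃ c : F, (K * lft α η')ᴴ * (K * lft α η) = c • (1 : Matrix α α F) := by
    intro η η' hη
    obtain ⟨u, hu⟩ := H.layer_image hgood hz0 hz hz0 hz hSM hSz (by simp) hη
    refine ⟨(sp η' u - sp η' η) / d, ?_⟩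
    have e := congrArg (rgt α (star η') * ·) hu
    simp only [Matrix.mul_one, hS, Matrix.add_mul, Matrix.one_mul, Matrix.mul_add, Matrix.smul_mul,
      Matrix.mul_smul, rgt_mul_lft] at e
    rw [conjTranspose_mul, lft_conjTranspose]
    simp only [Matrix.mul_assoc] at e ⊢
    rw [div_eq_inv_mul, mul_smul, sub_smul]
    change _ = d⁻¹ • ((star η' ⬝ᵥ u) • (1 : Matrix α α F) - (star η' ⬝ᵥ η) • 1)
    rw [← e, add_sub_cancel_left, smul_smul, inv_mul_cancel₀ hd0, one_smul]
  obtain ⟨L₀, hL⟩ : ∃ L₀ : Matrix α α F, ∀ v : Fin b → F, ∃ c : F, K * lft α v = c • L₀ := by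
    obtain ⟨z', hz', h1, h2⟩ := partner H.ns hz0 hz
    by_cases hall : ∀ η, sp z η = 0 → K * lft α η = 0
    · refine ⟨K * lft α z', fun v => ⟨sp z v, ?_⟩⟩
      have := hall (v - sp z v • z') (by rw [sp_sub_right, sp_smul_right, h1]; ring)
      rw [sub_eq_add_neg, ← neg_smul, lft_add, lft_smul, Matrix.mul_add, Matrix.mul_smul, neg_smul,
        add_neg_eq_zero] at this
      exact this
    push Not at hall
    obtain ⟨η, hη, hη0⟩ := hall
    have hinv : IsUnit (K * lft α η).det := by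
      obtain ⟨k, hk⟩ : ∃ k : Fin b, rgt α (star (Pi.single k (1 : F))) * (Kᴴ * (K * lft α η)) ≠ 0 := by
        by_contra hc
        push Not at hc
        refine hη0 (hKinj _ ?_)
        ext ⟨j, k⟩ l
        have := congrFun (congrFun (hc k) j) l
        rwa [show star (Pi.single k (1 : F) : Fin b → F) = Pi.single k 1 by
          funext x; by_cases hx : x = k <;> simp [hx, Pi.single_eq_of_ne], rgt_single_mul] at this
      obtain ⟨c, hc⟩ := hkey η (Pi.single k 1) hη
      rw [conjTranspose_mul, lft_conjTranspose, Matrix.mul_assoc] at hc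
      have hc0 : c ≠ 0 := fun h0 => hk (by rw [hc, h0, zero_smul])
      rw [← Matrix.mul_assoc] at hc
      have := congrArg Matrix.det hc
      rw [det_mul, det_smul, det_one, mul_one] at this
      exact IsUnit.mk0 _ (right_ne_zero_of_mul (this ▸ pow_ne_zero _ hc0))
    refine ⟨((K * lft α η)ᴴ)⁻¹, fun v => ?_⟩
    obtain ⟨c, hc⟩ := hkey η v hη
    refine ⟨star c, ?_⟩
    have e := congrArg Matrix.conjTranspose hc
    rw [conjTranspose_mul, conjTranspose_conjTranspose, conjTranspose_smul, conjTranspose_one] at e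
    have hu : IsUnit ((K * lft α η)ᴴ).det := by rw [det_conjTranspose]; exact hinv.star
    have := congrArg (((K * lft α η)ᴴ)⁻¹ * ·) e
    rwa [← Matrix.mul_assoc, Matrix.nonsing_inv_mul _ hu, Matrix.one_mul, Matrix.mul_smul, Matrix.mul_one] at this
  have hL0 : IsUnit L₀.det := by
    rw [isUnit_iff_ne_zero]
    intro hdet
    obtain ⟨a, ha, haL⟩ := (Matrix.exists_vecMul_eq_zero_iff (M := L₀)).2 hdet
    have haK : a ᵥ* K = 0 := by
      funext ⟨j, k⟩
      obtain ⟨c, hc⟩ := hL (Pi.single k 1)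
      have : a ᵥ* (K * lft α (Pi.single k (1 : F))) = 0 := by rw [hc, vecMul_smul, haL, smul_zero]
      have := congrFun this j
      simpa [vecMul, dotProduct, mul_lft_single] using this
    obtain ⟨x', hx', e1, e2⟩ := partner H.ns hx0 hx
    have := congrArg (· ᵥ* (Xᴴ * lft α x')) haK
    simp only [vecMul_vecMul, zero_vecMul] at this
    rw [hK, Matrix.mul_assoc, ← Matrix.mul_assoc X, H.unit hX, Matrix.one_mul, rgt_mul_lft,
      show star x₁ ⬝ᵥ x' = 1 from e1, one_smul, vecMul_one] at this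
    exact ha this
  obtain ⟨ψ, hψ⟩ := eq_rgt (L₀⁻¹ * K) fun v => by
    obtain ⟨c, hc⟩ := hL v
    exact ⟨c, by rw [Matrix.mul_assoc, hc, Matrix.mul_smul, Matrix.nonsing_inv_mul _ hL0]⟩
  have hKψ : K = L₀ * rgt α ψ := by rw [← hψ, ← Matrix.mul_assoc, Matrix.mul_nonsing_inv _ hL0, Matrix.one_mul]
  have hlay : Xᴴ * lft α x₁ = lft α (star ψ) * L₀ᴴ := by
    rw [hXKt, hKψ, conjTranspose_mul, ← rgt_conjTranspose, star_star]
  have hdetL : IsUnit L₀ᴴ.det := by rw [det_conjTranspose]; exact hL0.star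
  have hψ0 : star ψ ≠ 0 := fun h0 => by
    rw [h0, lft_zero, Matrix.zero_mul] at hlay
    have := congrArg (X * ·) hlay
    rw [← Matrix.mul_assoc, H.unit hX, Matrix.one_mul, Matrix.mul_zero] at this
    obtain ⟨k, hk⟩ := Function.ne_iff.1 hx0
    exact hk (by simpa [lft_apply] using congrFun (congrFun this (i, k)) i)
  have hψψ : sp (star ψ) (star ψ) = 0 := by
    by_contra hne
    have e := hKK
    rw [hKψ, conjTranspose_mul, Matrix.mul_assoc, ← Matrix.mul_assoc (rgt α ψ),
      show (rgt α ψ)ᴴ = lft α (star ψ) by rw [← rgt_conjTranspose, star_star],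
      rgt_mul_lft, Matrix.smul_mul, Matrix.one_mul, Matrix.mul_smul] at e
    have e2 := (smul_eq_zero.1 e).resolve_left (by simpa [sp] using hne)
    have := congrArg Matrix.det e2
    rw [det_mul, det_zero] at this
    exact (hL0.mul hdetL).ne_zero this
  obtain ⟨g, k, hgk⟩ := H.pure_of_layer hgood hx0 hx hψ0 hψψ (H.inv hX) hlay hdetL
  exact hnp ⟨gᴴ, kᴴ, by rw [← kron_conjTranspose, ← hgk, conjTranspose_conjTranspose]⟩

end Cfsg.Agent.H99.TensorU
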