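import Cfsg.Agent.H99.TensorU.Group

/-!
A layer with a coefficient that is not scalar: the coefficients then contain every skew rank one matrix.
-/

set_option autoImplicit false
set_option linter.unusedSectionVars false

namespace Cfsg.Agent.H99.TensorU

open Matrix Tensor
open scoped Kronecker

variable {F : Type*} [Field F] [StarRing F] [Finite F] {α : Type} [Fintype α] [DecidableEq α] {b : ℕ}

local notation "Ix" => α × Fin b

/-- Only scalars occur in a layer. -/
def Good (M : Subgroup (GL (α × Fin b) F)) : Prop :=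
  ∀ (w : Fin b → F) (G : Matrix α α F), w ≠ 0 → sp w w = 0 →
    InM M (1 + G ⊗ₖ vecMulVec w (star w)) → ∃ c : F, G = c • (1 : Matrix α α F)

/-- A coefficient occurring in all layers. -/
def InLay (M : Subgroup (GL (α × Fin b) F)) (G : Matrix α α F) : Prop :=
  ∀ w : Fin b → F, sp w w = 0 → InM M (1 + G ⊗ₖ vecMulVec w (star w))

theorem skew_scalar_of_iso (hns : ∃ x : F, star x ≠ x) {G : Matrix α α F} (hG : Gᴴ = -G)
    (h : ∀ v : α → F, sp v v = 0 → sp v (G *ᵥ v) = 0) : ∃ c : F, G = c • (1 : Matrix α α F) := by
  have key : ∀ i j, i ≠ j → G i j = 0 ∧ G i i = G j j := by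
    intro i j hij
    obtain ⟨e₀, he₀⟩ := exists_norm hns (a := (-1 : F)) (by rw [star_neg, star_one])
    obtain ⟨d, hd0, hd⟩ := exists_skew hns
    have hGji : G j i = -star (G i j) := by
      have := congrFun (congrFun hG j) i
      rw [conjTranspose_apply, Matrix.neg_apply] at this
      rw [this, neg_neg]
    have hev : ∀ ε : F, ε * star ε = -1 → G i i - G j j + ε * G i j - star (ε * G i j) = 0 := by
      intro ε hε
      have hv : sp (Pi.single i 1 + ε • Pi.single j 1) (Pi.single i 1 + ε • Pi.single j 1) = 0 := by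
        simp only [sp_add_left, sp_add_right, sp_smul_left, sp_smul_right, sp_single_left, Pi.single_eq_same,
          Pi.single_eq_of_ne hij, Pi.single_eq_of_ne hij.symm]
        linear_combination hε
      have h1 := h _ hv
      simp only [mulVec_add, mulVec_smul, sp_add_left, sp_add_right, sp_smul_left, sp_smul_right, sp_single_left,
        mulVec_single_one, Matrix.col_apply, hGji] at h1
      rw [star_mul']
      linear_combination h1 - G j j * hε
    set g := G i j
    set m := G i i - G j j with hm
    have e0 := hev e₀ he₀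
    obtain ⟨x, hx⟩ : ∃ x : F, star x ≠ x := hns
    -- three values of the parameter
    have hu : ∀ z : F, z ≠ 0 → m + e₀ * (star z / z) * g - star (e₀ * (star z / z) * g) = 0 := fun z hz =>
      hev _ (by
        have : star z ≠ 0 := star_ne_zero.2 hz
        rw [star_mul', star_div₀, star_star]
        field_simp
        linear_combination he₀)
    have hg : g = 0 := by
      by_contra hg0
      have he00 : e₀ ≠ 0 := fun h0 => by simp [h0] at he₀
      have hroot : ∀ z : F, z ≠ 0 → ∀ ρ, ρ = e₀ * (star z / z) → g * ρ * ρ + m * ρ + star g = 0 := by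
        intro z hz ρ hρ
        have h1 := hu z hz
        rw [← hρ, star_mul'] at h1
        have h2 : ρ * star ρ = -1 := by
          have : star z ≠ 0 := star_ne_zero.2 hz
          rw [hρ, star_mul', star_div₀, star_star]
          field_simp
          linear_combination he₀
        linear_combination ρ * h1 + star g * h2
      have hx0 : x ≠ 0 := fun h0 => hx (by rw [h0, star_zero])
      have hx1 : x + 1 ≠ 0 := fun h0 => hx (by rw [eq_neg_of_add_eq_zero_left h0, star_neg, star_one])
      have r1 := hroot 1 one_ne_zero e₀ (by simp)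
      have r2 := hroot x hx0 _ rfl
      have r3 := hroot (x + 1) hx1 _ rfl
      set p := e₀ * (star x / x) with hp
      set r := e₀ * (star (x + 1) / (x + 1)) with hr
      have hpe : p ≠ e₀ := fun h0 => hx (by
        rw [hp] at h0
        field_simp at h0
        exact h0)
      have hre : r ≠ e₀ := fun h0 => hx (by
        rw [hr] at h0
        field_simp at h0
        rw [star_add, star_one] at h0
        exact add_right_cancel h0)
      have hpr : p ≠ r := fun h0 => hx (by
        rw [hp, hr, star_add, star_one] at h0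
        field_simp at h0
        linear_combination h0)
      have s1 : g * (p + e₀) + m = 0 := by
        have : (p - e₀) * (g * (p + e₀) + m) = 0 := by linear_combination r2 - r1
        exact (mul_eq_zero.1 this).resolve_left (sub_ne_zero.2 hpe)
      have s2 : g * (r + e₀) + m = 0 := by
        have : (r - e₀) * (g * (r + e₀) + m) = 0 := by linear_combination r3 - r1
        exact (mul_eq_zero.1 this).resolve_left (sub_ne_zero.2 hre)
      exact hpr (mul_left_cancel₀ hg0 (by linear_combination s1 - s2))
    refine ⟨hg, ?_⟩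
    rw [hg, mul_zero, star_zero] at e0
    linear_combination e0
  rcases isEmpty_or_nonempty α with he | ⟨⟨i0⟩⟩
  · exact ⟨0, by ext i; exact isEmptyElim i⟩
  refine ⟨G i0 i0, ?_⟩
  ext i j
  by_cases hij : i = j
  · subst hij
    by_cases hi : i = i0
    · simp [hi]
    · simp [(key i i0 hi).2]
  · simp [hij, (key i j hij).1]

variable {M : Subgroup (GL (α × Fin b) F)} (H : Over M)
include H

/-- A layer can be scaled by squares of fixed scalars. -/
theorem Over.lay_sq {w : Fin b → F} (hw0 : w ≠ 0) (hw : sp w w = 0) {G : Matrix α α F}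
    (hG : InM M (1 + G ⊗ₖ vecMulVec w (star w))) {r : F} (hr : star r = r) :
    InM M (1 + ((r * r) • G) ⊗ₖ vecMulVec w (star w)) := by
  rcases eq_or_ne r 0 with rfl | hr0
  · rw [zero_mul, zero_smul, zero_kronecker, add_zero]; exact InM.one
  obtain ⟨d, hd0, hd⟩ := exists_skew H.ns
  obtain ⟨w', hw'w', h1, h2⟩ := partner H.ns hw0 hw
  have hG1 := H.lay_move hw hw'w' (by rw [h2]; exact one_ne_zero) hd0 hd hG
  have hd2 : star (r / d) = -(r / d) := by rw [star_div₀, hr, hd, div_neg]
  have hG2 := H.lay_move hw'w' hw (by rw [h1]; exact one_ne_zero) (div_ne_zero hr0 hd0) hd2 hG1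
  rw [h1, h2, smul_smul, mul_one, mul_one, hd, hd2] at hG2
  convert hG2 using 4
  field_simp

/-- A layer can be scaled by fixed scalars. -/
theorem Over.lay_fixed {w : Fin b → F} (hw0 : w ≠ 0) (hw : sp w w = 0) {G : Matrix α α F}
    (hG : InM M (1 + G ⊗ₖ vecMulVec w (star w))) {r : F} (hr : star r = r) :
    InM M (1 + (r • G) ⊗ₖ vecMulVec w (star w)) := by
  by_cases h2 : (2 : F) = 0
  · have : CharP F 2 := CharTwo.of_one_ne_zero_of_two_eq_zero one_ne_zero h2
    obtain ⟨s, hs⟩ := FiniteField.isSquare_of_char_two (F := F) (ringChar.eq F 2) r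
    have hs' : star s = s := by
      have e : (star s - s) * (star s - s) = 0 := by
        have e' : star s * star s = s * s := by rw [← star_mul', ← hs, hr]
        linear_combination e' + (s * s - s * star s) * h2
      exact sub_eq_zero.1 (mul_self_eq_zero.1 e)
    rw [hs]
    exact H.lay_sq hw0 hw hG hs'
  · have h4 : ∀ x : F, star x = x → star (x / 2) = x / 2 := fun x hx => by rw [star_div₀, hx, star_ofNat]
    have := H.lay_mul hw (H.lay_sq hw0 hw hG (h4 (r + 1) (by rw [star_add, hr, star_one])))
      (H.lay_neg hw (H.lay_sq hw0 hw hG (h4 (r - 1) (by rw [star_sub, hr, star_one]))))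
    rw [← sub_eq_add_neg, ← sub_smul] at this
    convert this using 4
    field_simp
    ring

/-- A coefficient of one layer occurs in all. -/
theorem Over.inLay_of {w : Fin b → F} (hw0 : w ≠ 0) (hw : sp w w = 0) {G : Matrix α α F}
    (hG : InM M (1 + G ⊗ₖ vecMulVec w (star w))) : InLay M G := by
  have step : ∀ w w' : Fin b → F, w ≠ 0 → sp w w = 0 → sp w' w' = 0 → sp w' w ≠ 0 →
      InM M (1 + G ⊗ₖ vecMulVec w (star w)) → InM M (1 + G ⊗ₖ vecMulVec w' (star w')) := by
    intro u u' hu0 hu hu' huu hGu
    obtain ⟨d, hd0, hd⟩ := exists_skew H.ns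
    have hμ : d * sp u' u ≠ 0 := mul_ne_zero hd0 huu
    have hm := H.lay_move hu hu' huu hd0 hd hGu
    have hu'0 : u' ≠ 0 := fun h => huu (by rw [h, sp_zero_left])
    have := H.lay_fixed hu'0 hu' hm (r := ((d * sp u' u) * star (d * sp u' u))⁻¹)
      (by rw [star_inv₀, star_mul', star_star, mul_comm])
    rwa [smul_smul, inv_mul_cancel₀ (mul_ne_zero hμ (star_ne_zero.2 hμ)), one_smul] at this
  intro w' hw'
  rcases eq_or_ne w' 0 with rfl | hw'0
  · rw [star_zero, vecMulVec_zero, kronecker_zero, add_zero]; exact InM.one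
  obtain ⟨u, huu, hwu, hw'u⟩ := exists_iso_not_perp₂ H.ns (by rw [Fintype.card_fin]; have := H.four; omega) hw0 hw'0
  have hu0 : u ≠ 0 := fun h => hwu (by rw [h, sp_zero_right])
  exact step u w' hu0 huu hw' hw'u (step w u hw0 hw huu (fun h => hwu (sp_zero_comm.1 h)) hG)

theorem Over.exists_iso : ∃ w : Fin b → F, w ≠ 0 ∧ sp w w = 0 := by
  obtain ⟨w, -, h1, h2⟩ := exists_iso_in H.ns (⊤ : Submodule F (Fin b → F)) (by simp; have := H.four; omega)
  exact ⟨w, h1, h2⟩

theorem Over.inLay_add {G G' : Matrix α α F} (h : InLay M G) (h' : InLay M G') : InLay M (G + G') :=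
  fun w hw => H.lay_mul hw (h w hw) (h' w hw)

theorem Over.inLay_sub {G G' : Matrix α α F} (h : InLay M G) (h' : InLay M G') : InLay M (G - G') := by
  rw [sub_eq_add_neg]
  exact fun w hw => H.lay_mul hw (h w hw) (H.lay_neg hw (h' w hw))

theorem Over.inLay_fixed {G : Matrix α α F} (h : InLay M G) {r : F} (hr : star r = r) : InLay M (r • G) := by
  obtain ⟨w, hw0, hw⟩ := H.exists_iso
  exact H.inLay_of hw0 hw (H.lay_fixed hw0 hw (h w hw) hr)

theorem Over.inLay_conj {G : Matrix α α F} (h : InLay M G) {g : Matrix α α F} (hg : g * gᴴ = 1)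
    (hd : g.det = 1) : InLay M (g * G * gᴴ) := by
  intro w hw
  have := H.conj (h w hw) (H.left_factor g hg hd)
  rwa [kron_conjTranspose, ← mul_kronecker_mul, ← mul_kronecker_mul, conjTranspose_one, Matrix.one_mul,
    Matrix.mul_one] at this

/-- The change of a coefficient under a transvection of the first factor. -/
theorem Over.inLay_diff {G : Matrix α α F} (h : InLay M G) {v : α → F} (hv : sp v v = 0) {d : F}
    (hd : star d = -d) :
    InLay M (d • (vecMulVec v (star v) * G - G * vecMulVec v (star v)) -
      (d * d * sp v (G *ᵥ v)) • vecMulVec v (star v)) := by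
  have := H.inLay_sub (H.inLay_conj h (trans_unitary hv hd).1 (trans_unitary hv hd).2) h
  convert this using 1
  have e : vecMulVec v (star v) * G * vecMulVec v (star v) = sp v (G *ᵥ v) • vecMulVec v (star v) := by
    rw [Matrix.mul_assoc, Matrix.mul_vecMulVec, vmv_mul]
  rw [conjTranspose_add, conjTranspose_one, conjTranspose_smul, vmv_conjTranspose, hd]
  simp only [Matrix.mul_add, Matrix.add_mul, Matrix.one_mul, Matrix.mul_one, Matrix.smul_mul, Matrix.mul_smul, e]
  module

/-- A coefficient that is not scalar gives a transvection of the first factor. -/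
theorem Over.exists_trans (hq : (∃ r : F, star r = r ∧ r ≠ 0 ∧ r ≠ 1) ∨ 3 ≤ Fintype.card α) (hbad : ¬ Good M) :
    ∃ (v : α → F) (d : F), v ≠ 0 ∧ sp v v = 0 ∧ d ≠ 0 ∧ star d = -d ∧ InLay M (d • vecMulVec v (star v)) := by
  simp only [Good, not_forall] at hbad
  obtain ⟨w, G, hw0, hw, hGM, hns⟩ := hbad
  have hG := H.inLay_of hw0 hw hGM
  have hskew := H.lay_skew hw0 hw hGM
  obtain ⟨v, hv, hs⟩ : ∃ v : α → F, sp v v = 0 ∧ sp v (G *ᵥ v) ≠ 0 := by
    by_contra h
    push Not at h
    exact hns (skew_scalar_of_iso H.ns hskew h)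
  have hv0 : v ≠ 0 := fun h => hs (by rw [h, sp_zero_left])
  set s := sp v (G *ᵥ v) with hsdef
  have hss : star s = -s := by
    rw [hsdef, sp_star]
    have : sp (G *ᵥ v) v = sp v (Gᴴ *ᵥ v) := by
      rw [sp, sp, star_mulVec, ← dotProduct_mulVec]
    rw [this, hskew, neg_mulVec, sp_neg_right]
  obtain ⟨d, hd0, hd⟩ := exists_skew H.ns
  by_cases hq3 : ∃ r : F, star r = r ∧ r ≠ 0 ∧ r ≠ 1
  · obtain ⟨r, hr, hr0, hr1⟩ := hq3
    have h1 := H.inLay_sub (H.inLay_fixed (H.inLay_diff hG hv hd) hr) (H.inLay_diff hG hv (d := r * d)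
      (by rw [star_mul', hr, hd]; ring))
    rw [← hsdef] at h1
    refine ⟨v, (r * r - r) * (d * d * s), hv0, hv, mul_ne_zero ?_ (mul_ne_zero (mul_ne_zero hd0 hd0) hs), ?_, ?_⟩
    · rw [show r * r - r = r * (r - 1) by ring]
      exact mul_ne_zero hr0 (sub_ne_zero.2 hr1)
    · simp only [star_mul', star_sub, hr, hd, hss]; ring
    · convert h1 using 1
      module
  · -- two elements in the fixed field
    push Not at hq3
    have hα : 3 ≤ Fintype.card α := hq.resolve_left (by rintro ⟨r, a1, a2, a3⟩; exact a3 (hq3 r a1 a2))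
    have h2 : (2 : F) = 0 := by
      by_contra h
      have := hq3 2 (by rw [star_ofNat]) h
      exact one_ne_zero (α := F) (by linear_combination this)
    have hneg : ∀ x : F, -x = x := fun x => by linear_combination (-x) * h2
    rw [hneg] at hd hss
    obtain rfl : d = 1 := hq3 d hd hd0
    have hs1 : s = 1 := hq3 s hss hs
    set u := G *ᵥ v with hu
    have hX := H.inLay_diff hG hv (d := 1) (by rw [hneg, star_one])
    rw [← hu, ← hsdef, hs1] at hX
    have e1 : vecMulVec v (star v) * G = vecMulVec v (star u) := by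
      rw [Matrix.vecMulVec_mul]
      congr 1
      rw [hu, star_mulVec, hskew, ← neg_one_smul F G, vecMul_smul, hneg, one_smul]
    rw [e1, Matrix.mul_vecMulVec, ← hu, one_smul, one_mul, one_mul, one_smul] at hX
    set X := vecMulVec v (star u) - vecMulVec u (star v) - vecMulVec v (star v) with hXdef
    obtain ⟨e, hve, hee⟩ : ∃ e : α → F, sp v e = 0 ∧ sp e e = 1 := by
      obtain ⟨U, hU, hUv⟩ := finrank_perp (ι := α) ![v]
      obtain ⟨y, hy, hyy⟩ : ∃ y ∈ U, sp y y ≠ 0 := by
        by_contra h
        push Not at h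
        have := H98.Herm.ti_bound (hform_unitary (ι := α) H.ns) U fun x hx y hy => by
          change sp y x = 0
          by_contra hxy
          obtain ⟨t, ht⟩ := exists_trace H.ns (a := (1 : F)) (star_one F)
          have h1 := h _ (U.add_mem hx (U.smul_mem (t / sp x y) hy))
            
          rw [sp_add_left, sp_add_right, sp_add_right, sp_smul_left, sp_smul_left, sp_smul_right, sp_smul_right,
            h x hx, h y hy, div_mul_cancel₀ _ (fun h0 => hxy (sp_zero_comm.1 h0))] at h1
          have h3 : star (t / sp x y) * sp y x = star t := by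
            rw [star_div₀, sp_star, div_mul_cancel₀ _ hxy]
          rw [h3] at h1
          exact one_ne_zero (α := F) (by linear_combination h1 - ht)
        omega
      refine ⟨y, hUv y hy 0, ?_⟩
      have hfix : star (sp y y) = sp y y := sp_star y y
      exact hq3 _ hfix hyy
    have hev : sp e v = 0 := sp_zero_comm.1 hve
    have hvu : sp v u = 1 := by rw [hu, ← hsdef, hs1]
    have huv : sp u v = 1 := by rw [← sp_star v u, hvu, star_one]
    obtain ⟨c, hc⟩ := exists_trace H.ns (a := (-1 : F)) (by rw [star_neg, star_one])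
    obtain ⟨x, hx⟩ := H.ns
    have hT : ∀ t : F, t ≠ 0 → InLay M (t • vecMulVec e (star v) + star t • vecMulVec v (star e) +
        (1 + (t * sp u e + star t * sp e u)) • vecMulVec v (star v)) := by
      intro t ht
      have hnorm : t * star t = 1 := hq3 _ (by rw [star_mul', star_star, mul_comm]) (mul_ne_zero ht (star_ne_zero.2 ht))
      have hη : sp v (t • e) = 0 := by rw [sp_smul_right, hve, mul_zero]
      obtain ⟨hU, hD⟩ := root_unitary (w := v) (η := t • e) (c := c) hv hη (by
        rw [sp_smul_left, sp_smul_right, hee]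
        linear_combination hc + hnorm)
      have h3 := H.inLay_sub (H.inLay_conj hX hU hD) hX
      convert h3 using 1
      have k1 : (1 + nil v (t • e) c) *ᵥ v = v := by
        simp only [nil, add_mulVec, sub_mulVec, one_mulVec, smul_mulVec, vmv_mulVec, hv, sp_smul_left, hev,
          mul_zero, zero_smul, smul_zero, sub_zero, add_zero]
      set κ := c - star t * sp e u with hκ
      have k2 : (1 + nil v (t • e) c) *ᵥ u = u + (t • e + κ • v) := by
        rw [hκ]
        simp only [nil, add_mulVec, sub_mulVec, one_mulVec, smul_mulVec, vmv_mulVec, hvu, sp_smul_left, one_smul]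
        module
      have k3 : κ + star κ = 1 + (t * sp u e + star t * sp e u) := by
        rw [hκ, star_sub, star_mul', star_star, sp_star]
        linear_combination hc - (star t * sp e u + sp u e * t + 1) * h2
      rw [hXdef]
      simp only [Matrix.mul_sub, Matrix.sub_mul, vmv_conj, k1, k2, vmv_add_left, vmv_add_right, vmv_smul_left,
        vmv_smul_right, ← k3]
      match_scalars
      all_goals first | ring1 | linear_combination (-t) * h2 | linear_combination t * h2 |
        linear_combination (-κ) * h2 | linear_combination κ * h2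
    have hx0 : x ≠ 0 := fun h0 => hx (by rw [h0, star_zero])
    have hx1 : x + 1 ≠ 0 := fun h0 => hx (by rw [eq_neg_of_add_eq_zero_left h0, star_neg, star_one])
    have hsum := H.inLay_add (H.inLay_add (hT 1 one_ne_zero) (hT x hx0)) (hT (x + 1) hx1)
    refine ⟨v, 1, hv0, hv, one_ne_zero, by rw [star_one, hneg], ?_⟩
    convert hsum using 1
    simp only [star_add, star_one]
    match_scalars
    · linear_combination -(1 + sp u e * (1 + x) + sp e u * (1 + star x)) * h2
    · linear_combination -(1 + x) * h2
    · linear_combination -(1 + star x) * h2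

end Cfsg.Agent.H99.TensorU
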