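import Cfsg.Agent.H99.TensorU.Purity
import Cfsg.Agent.H99.Tensor.Descent

/-!
Conjugates of root elements by elements that are not pure tensors are not pure tensors.
-/

set_option autoImplicit false
set_option linter.unusedSectionVars false

namespace Cfsg.Agent.H99.TensorU

open Matrix Tensor
open scoped Kronecker

variable {F : Type*} [Field F] [StarRing F] [Finite F] {α : Type} [Fintype α] [DecidableEq α] {b : ℕ}

local notation "Ix" => α × Fin b

theorem kron_eq_one [Nonempty α] [NeZero b] {g : Matrix α α F} {h : Matrix (Fin b) (Fin b) F} (e : g ⊗ₖ h = 1) :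
    ∃ μ : F, μ ≠ 0 ∧ g = μ • (1 : Matrix α α F) ∧ h = μ⁻¹ • (1 : Matrix (Fin b) (Fin b) F) := by
  obtain ⟨i⟩ := ‹Nonempty α›
  have hij : ∀ (i j : α) (k l : Fin b), g i j * h k l = if i = j ∧ k = l then 1 else 0 := fun i j k l => by
    have := congrFun (congrFun e (i, k)) (j, l)
    simpa [Matrix.one_apply, Prod.ext_iff] using this
  have h0 := hij i i 0 0
  simp only [and_self, ↓reduceIte] at h0
  have hg : g i i ≠ 0 := left_ne_zero_of_mul_eq_one h0
  have hh : h 0 0 ≠ 0 := right_ne_zero_of_mul_eq_one h0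
  refine ⟨g i i, hg, ?_, ?_⟩
  · ext a c
    refine mul_right_cancel₀ hh ?_
    rw [hij, Matrix.smul_apply, Matrix.one_apply, smul_eq_mul]
    by_cases hac : a = c <;> simp [hac, h0]
  · ext k l
    refine mul_left_cancel₀ hg ?_
    rw [hij, Matrix.smul_apply, Matrix.one_apply, smul_eq_mul]
    by_cases hkl : k = l <;> simp [hkl, hg]

variable {M : Subgroup (GL (α × Fin b) F)} (H : Over M) (hgood : Good M)
include H hgood

/-- A conjugate of a transvection. -/
theorem Over.conj_trans_not_pure [Nonempty α] (hab : Fintype.card α < b) {X : Matrix Ix Ix F} (hX : InM M X)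
    (hnp : ¬ IsPure X) {z : Fin b → F} (hz0 : z ≠ 0) (hz : sp z z = 0) {d : F} (hd0 : d ≠ 0) :
    ¬ IsPure (1 + X * (d • (lft α z * rgt α (star z))) * Xᴴ) := by
  rintro ⟨g, k, hgk⟩
  set Y := X * lft α z with hY
  have hY' : rgt α (star z) * Xᴴ = Yᴴ := by rw [hY, conjTranspose_mul, lft_conjTranspose]
  have hinv : Xᴴ * X = 1 := H.unit' hX
  have key : ∀ x : Fin b → F, lft α (k *ᵥ x) * g - lft α x = d • (Y * (Yᴴ * lft α x)) := by
    intro x
    have := congrArg (· * lft α x) hgk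
    simp only [Matrix.add_mul, Matrix.one_mul, kron_lft] at this
    rw [← this, add_sub_cancel_left, hY, ← hY', Matrix.mul_smul, Matrix.smul_mul, Matrix.smul_mul]
    simp only [Matrix.mul_assoc]
  have hYinj : ∀ T : Matrix α α F, Y * T = 0 → T = 0 := fun T hT => by
    have e := congrArg (Xᴴ * ·) hT
    rw [hY, ← Matrix.mul_assoc, ← Matrix.mul_assoc, hinv, Matrix.one_mul, Matrix.mul_zero] at e
    exact lft_injective hz0 (e.trans (Matrix.mul_zero _).symm)
  by_cases hsc : ∃ c : F, k = c • (1 : Matrix (Fin b) (Fin b) F)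
  · obtain ⟨c, rfl⟩ := hsc
    set G := c • g - 1 with hG
    have hG0 : G ≠ 0 := by
      intro hG0
      have e : (1 : Matrix Ix Ix F) + X * (d • (lft α z * rgt α (star z))) * Xᴴ = 1 := by
        rw [hgk, kronecker_smul, ← smul_kronecker, sub_eq_zero.1 (hG ▸ hG0 : c • g - 1 = 0), one_kronecker_one]
      rw [add_eq_left] at e
      have e2 := congrArg (fun Z => Xᴴ * Z * X) e
      simp only [← Matrix.mul_assoc, hinv, Matrix.one_mul, Matrix.mul_zero, Matrix.zero_mul] at e2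
      rw [Matrix.mul_assoc _ Xᴴ X, hinv, Matrix.mul_one, smul_eq_zero_iff_right hd0] at e2
      have e3 := lft_injective (α := α) (β := Fin b) (K := rgt α (star z)) (K' := (0 : Matrix α Ix F)) hz0
        (e2.trans (Matrix.mul_zero _).symm)
      exact hz0 (star_eq_zero.1 (rgt_eq_iff (α := α) (e3.trans rgt_zero.symm)))
    obtain ⟨j, hj⟩ : ∃ j, G *ᵥ Pi.single j 1 ≠ 0 := by
      by_contra hc
      push Not at hc
      exact hG0 (Matrix.ext_of_mulVec_single fun j => by rw [hc j, Matrix.zero_mulVec])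
    let f : (Fin b → F) →ₗ[F] (α → F) :=
      { toFun := fun u => (Yᴴ * lft α u) *ᵥ Pi.single j 1
        map_add' := fun u u' => by rw [lft_add, Matrix.mul_add, Matrix.add_mulVec]
        map_smul' := fun a u => by rw [lft_smul, Matrix.mul_smul, Matrix.smul_mulVec, RingHom.id_apply] }
    obtain ⟨u, hu, hu0⟩ := Submodule.exists_mem_ne_zero_of_ne_bot
      (LinearMap.ker_ne_bot_of_finrank_lt (f := f) (by simp; omega))
    have e : lft α ((c • (1 : Matrix (Fin b) (Fin b) F)) *ᵥ u) * g - lft α u = lft α u * G := by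
      rw [Matrix.smul_mulVec, Matrix.one_mulVec, lft_smul, hG, Matrix.mul_sub, Matrix.mul_one, Matrix.mul_smul,
        Matrix.smul_mul]
    have h2 : (lft α u * G) *ᵥ (Pi.single j 1 : α → F) = (d • (Y * (Yᴴ * lft α u))) *ᵥ Pi.single j 1 :=
      congrArg (· *ᵥ (Pi.single j 1 : α → F)) (e.symm.trans (key u))
    rw [Matrix.smul_mulVec, ← Matrix.mulVec_mulVec, ← Matrix.mulVec_mulVec,
      show (Yᴴ * lft α u) *ᵥ Pi.single j 1 = 0 from hu, Matrix.mulVec_zero, smul_zero] at h2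
    refine hj ?_
    obtain ⟨η, hη⟩ := exists_dual hu0
    have h3 := congrArg (rgt α η *ᵥ ·) h2
    simp only [Matrix.mulVec_mulVec, Matrix.mulVec_zero] at h3
    rwa [← Matrix.mul_assoc, rgt_mul_lft, hη, one_smul, Matrix.one_mul] at h3
  · obtain ⟨w, hw⟩ := exists_not_eigen hsc
    obtain ⟨η, hη0, hη, hp⟩ := exists_iso_perp H.ns ![w, k *ᵥ w] (by rw [Fintype.card_fin]; have := H.four; omega)
    obtain ⟨η', hη'w, hη'k⟩ := H64.SLIndex.exists_dot' (u := w) (v := k *ᵥ w) hw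
    have h1 := congrArg (rgt α η' * ·) (key w)
    simp only [Matrix.mul_sub, Matrix.mul_smul] at h1
    rw [← Matrix.mul_assoc, rgt_mul_lft, rgt_mul_lft, hη'w, hη'k, one_smul, Matrix.one_mul, zero_smul, sub_zero,
      ← Matrix.mul_assoc] at h1
    have h2 := congrArg (rgt α (star η) * ·) (key w)
    simp only [Matrix.mul_sub, Matrix.mul_smul] at h2
    have q0 : star η ⬝ᵥ w = 0 := sp_zero_comm.1 (hp 0)
    have q1 : star η ⬝ᵥ (k *ᵥ w) = 0 := sp_zero_comm.1 (hp 1)
    rw [← Matrix.mul_assoc, rgt_mul_lft, rgt_mul_lft, q0, q1, zero_smul, Matrix.zero_mul, sub_self,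
      ← Matrix.mul_assoc] at h2
    have hdet : g.det ≠ 0 := by
      intro h0
      have h1 : InM M (1 + X * (d • (lft α z * rgt α (star z))) * Xᴴ) ∨ True := Or.inr trivial
      have hsq : (1 + X * (d • (lft α z * rgt α (star z))) * Xᴴ).det = 1 := by
        have e : X * (d • (lft α z * rgt α (star z))) * Xᴴ = (d • Y) * Yᴴ := by
          rw [hY, ← hY', Matrix.smul_mul, Matrix.mul_smul, Matrix.smul_mul]
          simp only [Matrix.mul_assoc]
        rw [e, det_one_add_mul_comm, Matrix.mul_smul, ← hY', hY, Matrix.mul_assoc, ← Matrix.mul_assoc Xᴴ, hinv,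
          Matrix.one_mul, rgt_mul_lft, show star z ⬝ᵥ z = 0 from hz, zero_smul, smul_zero, add_zero, det_one]
      rw [hgk, det_kronecker, h0, zero_pow (by rw [Fintype.card_fin]; have := H.four; omega), zero_mul] at hsq
      exact zero_ne_one hsq
    have hQ : IsUnit (Yᴴ * lft α w).det := by
      rw [isUnit_iff_ne_zero]
      intro h0
      rw [h1, det_smul, det_mul, h0, mul_zero, mul_zero] at hdet
      exact hdet rfl
    refine H.ct_ne hgood hX hnp hη0 hη hz0 hz ?_
    have h3 : rgt α (star η) * Y * (Yᴴ * lft α w) = 0 := (smul_eq_zero.1 h2.symm).resolve_left hd0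
    have := congrArg (· * (Yᴴ * lft α w)⁻¹) h3
    rwa [Matrix.mul_nonsing_inv_cancel_right _ _ hQ, Matrix.zero_mul, hY, ← Matrix.mul_assoc] at this

/-- A conjugate of a root element. -/
theorem Over.conj_root_not_pure [Nonempty α] {U : Matrix Ix Ix F} (hU : InM M U) (hnp : ¬ IsPure U)
    {w η : Fin b → F} {c : F} (hw0 : w ≠ 0) (hw : sp w w = 0) (hη : sp w η = 0)
    (hc : c + star c + sp η η = 0) (hN : nil w η c ≠ 0)
    (hfull : (∀ x : Fin b → F, x ≠ 0 → sp x x = 0 → IsUnit (ct α U x w).det) ∨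
      (∃ a0 : α → F, a0 ≠ 0 ∧ (U * lft α w) *ᵥ a0 = lft α w *ᵥ a0 ∧
        ∀ v : α → F, ∃ v₁ v₂ : α → F, v = v₁ + v₂ ∧ (U * lft α w) *ᵥ v₁ = lft α w *ᵥ v₁ ∧
          ∃ y, ct α U w w *ᵥ y = v₂)) :
    ¬ IsPure (1 + U * ((1 : Matrix α α F) ⊗ₖ nil w η c) * Uᴴ) := by
  have : NeZero b := ⟨by have := H.four; omega⟩
  rintro ⟨g, h, hgh⟩
  set N := nil w η c with hNdef
  set R := 1 + U * ((1 : Matrix α α F) ⊗ₖ N) * Uᴴ with hR
  have hU' : Uᴴ * U = 1 := H.unit' hU
  obtain ⟨hTu, -⟩ := root_unitary hw hη hc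
  rw [← hNdef] at hTu
  have hNw : N *ᵥ w = 0 := by
    rw [hNdef]
    simp [nil, add_mulVec, sub_mulVec, smul_mulVec, vmv_mulVec, hw, sp_zero_comm.1 hη]
  have hN3 : N * N * N = 0 := by
    rw [hNdef]
    simp [nil, Matrix.add_mul, Matrix.mul_add, Matrix.sub_mul, Matrix.mul_sub, vmv_mul, hw, hη,
      sp_zero_comm.1 hη, Matrix.smul_mul, Matrix.mul_smul]
  obtain ⟨p, hp⟩ := CharP.exists F
  have hpp : p.Prime := (CharP.char_is_prime_or_zero F p).resolve_right (fun h0 => by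
    subst h0; exact CharP.char_ne_zero_of_finite F 0 rfl)
  have : Fact p.Prime := ⟨hpp⟩
  set E := p ^ 2 with hE
  have hE3 : 3 ≤ E := by
    have := hpp.two_le
    calc 3 ≤ 2 * 2 := by norm_num
      _ ≤ p * p := Nat.mul_le_mul this this
      _ = E := by rw [hE, sq]
  have hRE : R ^ E = 1 := by
    set A := U * ((1 : Matrix α α F) ⊗ₖ N) * Uᴴ with hA
    have hA3 : A * A * A = 0 := by
      rw [hA]
      simp only [Matrix.mul_assoc]
      rw [← Matrix.mul_assoc Uᴴ U, hU', Matrix.one_mul, ← Matrix.mul_assoc Uᴴ U, hU', Matrix.one_mul,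
        ← Matrix.mul_assoc ((1 : Matrix α α F) ⊗ₖ N), ← mul_kronecker_mul, ← Matrix.mul_assoc, ← Matrix.mul_assoc,
        Matrix.mul_assoc U, ← mul_kronecker_mul, hN3, Matrix.one_mul, Matrix.one_mul, kronecker_zero,
        Matrix.mul_zero, Matrix.zero_mul]
    have hAE : A ^ E = 0 := by
      obtain ⟨e, he⟩ := Nat.exists_eq_add_of_le hE3
      rw [he, pow_add, pow_three, ← Matrix.mul_assoc, hA3, Matrix.zero_mul]
    rw [hR, hE, add_pow_char_pow_of_commute _ _ (Commute.one_left A), one_pow, ← hE, hAE, add_zero]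
  have hkp : ∀ m : ℕ, (g ⊗ₖ h) ^ m = (g ^ m) ⊗ₖ (h ^ m) := by
    intro m
    induction m with
    | zero => simp [one_kronecker_one]
    | succ m ih => rw [pow_succ, ih, ← mul_kronecker_mul, ← pow_succ, ← pow_succ]
  rw [hgh, hkp] at hRE
  obtain ⟨μ, hμ0, hgE, hhE⟩ := kron_eq_one hRE
  obtain ⟨l, hl⟩ : ∃ l : F, l ^ E = μ := by
    have := (iterateFrobeniusEquiv F p 2).surjective μ
    obtain ⟨l, hl⟩ := this
    exact ⟨l, by rwa [iterateFrobeniusEquiv_apply] at hl⟩
  have hl0 : l ≠ 0 := fun h0 => hμ0 (by rw [← hl, h0, zero_pow (by omega)])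
  set g₀ := l⁻¹ • g with hg₀
  set h₀ := l • h with hh₀
  have hgh₀ : R = g₀ ⊗ₖ h₀ := by
    rw [hg₀, hh₀, smul_kronecker, kronecker_smul, smul_smul, inv_mul_cancel₀ hl0, one_smul, hgh]
  have hg₀E : g₀ ^ E = 1 := by
    rw [hg₀, smul_pow, hgE, smul_smul, inv_pow, hl, inv_mul_cancel₀ hμ0, one_smul]
  have hh₀E : h₀ ^ E = 1 := by
    rw [hh₀, smul_pow, hhE, smul_smul, hl, mul_inv_cancel₀ hμ0, one_smul]
  have hRu : R * Rᴴ = 1 := by
    have h1 := H.unit (H.conj (H.root (α := α) hw hη hc) hU)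
    rwa [← hNdef, ← hR] at h1
  rw [hgh₀, kron_conjTranspose, ← mul_kronecker_mul] at hRu
  obtain ⟨ν, hν0, -, hhh⟩ := kron_eq_one hRu
  have hh₀u : h₀ * h₀ᴴ = 1 := by
    suffices hν : ν⁻¹ = 1 by rw [hhh, hν, one_smul]
    obtain ⟨e, he⟩ : ∃ e, E = e + 1 := ⟨E - 1, by omega⟩
    have e1 : h₀ᴴ = ν⁻¹ • h₀ ^ e := by
      calc h₀ᴴ = h₀ ^ E * h₀ᴴ := by rw [hh₀E, Matrix.one_mul]
        _ = h₀ ^ e * (h₀ * h₀ᴴ) := by rw [he, pow_succ, Matrix.mul_assoc]
        _ = _ := by rw [hhh, Matrix.mul_smul, Matrix.mul_one]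
    have e2 : (h₀ᴴ) ^ E = 1 := by rw [← conjTranspose_pow, hh₀E, conjTranspose_one]
    rw [e1, smul_pow, ← pow_mul, mul_comm, pow_mul, hh₀E, one_pow] at e2
    have e3 := congrFun (congrFun e2 0) 0
    simp only [Matrix.smul_apply, Matrix.one_apply_eq, smul_eq_mul, mul_one] at e3
    have : (ν⁻¹ - 1) ^ E = 0 := by rw [sub_pow_char_pow (p := p), one_pow, ← hE, e3, sub_self]
    exact sub_eq_zero.1 (eq_zero_of_pow_eq_zero this)
  have hh₀u' : h₀ᴴ * h₀ = 1 := mul_eq_one_comm.1 hh₀u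
  -- the intertwining identity
  have hUR : U * ((1 : Matrix α α F) ⊗ₖ (1 + N)) = (g₀ ⊗ₖ h₀) * U := by
    rw [← hgh₀, hR, kronecker_add, one_kronecker_one, Matrix.mul_add, Matrix.add_mul, Matrix.one_mul, Matrix.mul_one,
      Matrix.mul_assoc _ Uᴴ U, hU', Matrix.mul_one]
  have hint : ∀ x y : Fin b → F, ct α U x ((1 + N) *ᵥ y) = g₀ * ct α U (h₀ᴴ *ᵥ x) y := by
    intro x y
    have e := congrArg (fun Z => rgt α (star x) * Z * lft α y) hUR
    simp only [Matrix.mul_assoc, kron_lft, Matrix.mul_one] at e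
    rw [← Matrix.mul_assoc (rgt α (star x)) (g₀ ⊗ₖ h₀), rgt_kron, Matrix.mul_assoc g₀] at e
    rw [ct, ct, star_mulVec, conjTranspose_conjTranspose]
    simp only [Matrix.mul_assoc]
    exact e
  have hkw : (1 + N) *ᵥ w = w := by rw [add_mulVec, one_mulVec, hNw, add_zero]
  -- a fixed isotropic vector
  have hfix : ∀ m : Matrix (Fin b) (Fin b) F, m ^ E = 1 → m * mᴴ = 1 → m ≠ 1 →
      ∃ v x : Fin b → F, v ≠ 0 ∧ sp v v = 0 ∧ m *ᵥ v = v ∧ mᴴ *ᵥ v = v ∧ m *ᵥ x - x = v := by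
    intro m hmE hmu hm1
    have hmu' : mᴴ * m = 1 := mul_eq_one_comm.1 hmu
    have hnil : (m - 1) ^ E = 0 := by
      rw [hE, sub_pow_char_pow_of_commute _ _ (Commute.one_right m), one_pow, ← hE, hmE, sub_self]
    classical
    have hex : ∃ j, (m - 1) ^ j = 0 := ⟨E, hnil⟩
    have h2 : 2 ≤ Nat.find hex := by
      rcases Nat.lt_or_ge (Nat.find hex) 2 with hlt | hge
      · exfalso
        have hs := Nat.find_spec hex
        interval_cases hh : Nat.find hex
        · simp at hs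
        · exact hm1 (sub_eq_zero.1 (by simpa using hs))
      · exact hge
    obtain ⟨j, hj⟩ := Nat.exists_eq_add_of_le h2
    have hj1 : (m - 1) ^ (j + 1) ≠ 0 := Nat.find_min hex (by omega)
    obtain ⟨k, hk⟩ : ∃ k, (m - 1) ^ (j + 1) *ᵥ Pi.single k 1 ≠ 0 := by
      by_contra hc
      push Not at hc
      exact hj1 (Matrix.ext_of_mulVec_single fun k => by rw [hc k, Matrix.zero_mulVec])
    set x := (m - 1) ^ j *ᵥ Pi.single k 1 with hx
    set v := (m - 1) ^ (j + 1) *ᵥ Pi.single k 1 with hv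
    have hvx : m *ᵥ x - x = v := by
      rw [hv, pow_succ', ← mulVec_mulVec, ← hx, sub_mulVec, one_mulVec]
    have hmv : m *ᵥ v = v := by
      rw [← sub_eq_zero]
      have : (m - 1) *ᵥ v = 0 := by
        rw [hv, mulVec_mulVec, ← pow_succ', show j + 1 + 1 = Nat.find hex by omega, Nat.find_spec hex, zero_mulVec]
      rwa [sub_mulVec, one_mulVec] at this
    have hmv' : mᴴ *ᵥ v = v := by
      conv_lhs => rw [← hmv, mulVec_mulVec, hmu', one_mulVec]
    refine ⟨v, x, hk, ?_, hmv, hmv', hvx⟩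
    have e : ∀ u : Fin b → F, sp u (m *ᵥ x) = sp (mᴴ *ᵥ u) x := fun u => by
      rw [sp, sp, star_mulVec, conjTranspose_conjTranspose, ← dotProduct_mulVec]
    conv_lhs => arg 2; rw [← hvx]
    rw [sp_sub_right, e, hmv', sub_self]
  have hg1 : g₀ = 1 := by
    rcases hfull with hfull | ⟨a0, ha0, hUa0, hdec⟩
    · obtain ⟨x, hx0, hxx, hfx⟩ : ∃ x : Fin b → F, x ≠ 0 ∧ sp x x = 0 ∧ h₀ᴴ *ᵥ x = x := by
        by_cases h1 : h₀ = 1
        · exact ⟨w, hw0, hw, by rw [h1, conjTranspose_one, one_mulVec]⟩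
        · obtain ⟨v, -, hv0, hvv, -, hv', -⟩ := hfix h₀ hh₀E hh₀u h1
          exact ⟨v, hv0, hvv, hv'⟩
      have e := hint x w
      rw [hkw, hfx] at e
      have hu := hfull x hx0 hxx
      have := congrArg (· * (ct α U x w)⁻¹) e
      simp only [Matrix.mul_nonsing_inv _ hu, Matrix.mul_nonsing_inv_cancel_right _ _ hu] at this
      exact this.symm
    have hUmap : ∀ v : α → F, (U * lft α w) *ᵥ v = lft α w *ᵥ v →
        (lft α (h₀ *ᵥ w) * g₀) *ᵥ v = lft α w *ᵥ v := by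
      intro v hv
      have e := congrArg (fun Z => (Z * lft α w) *ᵥ v) hUR
      simp only [Matrix.mul_assoc, kron_lft, Matrix.mul_one, hkw] at e
      rw [hv, ← mulVec_mulVec, hv, mulVec_mulVec, kron_lft] at e
      exact e.symm
    have hw1 : h₀ *ᵥ w = w := by
      obtain ⟨i, hi⟩ := Function.ne_iff.1 ha0
      have e : ∀ k, (h₀ *ᵥ w) k * (g₀ *ᵥ a0) i = w k * a0 i := by
        intro k
        have := congrFun (hUmap a0 hUa0) (i, k)
        rw [← mulVec_mulVec] at this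
        simpa [mulVec, dotProduct, lft_apply] using this
      have hgi : (g₀ *ᵥ a0) i ≠ 0 := by
        intro h0
        obtain ⟨k, hk⟩ := Function.ne_iff.1 hw0
        have := e k
        rw [h0, mul_zero, eq_comm, mul_eq_zero] at this
        exact hi (this.resolve_left hk)
      set r := a0 i / (g₀ *ᵥ a0) i
      have hrw : h₀ *ᵥ w = r • w := funext fun k => by
        rw [Pi.smul_apply, smul_eq_mul, div_mul_eq_mul_div, eq_div_iff hgi, e k, mul_comm]
      have hpow : ∀ m : ℕ, (h₀ ^ m) *ᵥ w = r ^ m • w := by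
        intro m
        induction m with
        | zero => simp
        | succ m ih => rw [pow_succ, ← mulVec_mulVec, hrw, mulVec_smul, ih, smul_smul, pow_succ, mul_comm]
      have hrE := hpow E
      rw [hh₀E, one_mulVec] at hrE
      obtain ⟨k, hk⟩ := Function.ne_iff.1 hw0
      have hrE1 : r ^ E = 1 := by
        have := congrFun hrE k
        rw [Pi.smul_apply, smul_eq_mul] at this
        exact (mul_right_cancel₀ hk (this.symm.trans (one_mul _).symm))
      have : (r - 1) ^ E = 0 := by rw [sub_pow_char_pow (p := p), one_pow, ← hE, hrE1, sub_self]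
      rw [hrw, sub_eq_zero.1 (eq_zero_of_pow_eq_zero this), one_smul]
    have hw2 : h₀ᴴ *ᵥ w = w := by conv_lhs => rw [← hw1, mulVec_mulVec, hh₀u', one_mulVec]
    refine Matrix.ext_of_mulVec_single fun i => ?_
    obtain ⟨v₁, v₂, hv, hv₁, y, hy⟩ := hdec (Pi.single i 1)
    have e1 : g₀ *ᵥ v₁ = v₁ := by
      obtain ⟨k, hk⟩ := Function.ne_iff.1 hw0
      funext j
      have := congrFun (hUmap v₁ hv₁) (j, k)
      rw [hw1, ← mulVec_mulVec] at this
      simp [mulVec, dotProduct, lft_apply] at this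
      exact this.resolve_right hk
    have e2 : g₀ *ᵥ v₂ = v₂ := by
      have e := hint w w
      rw [hkw, hw2] at e
      rw [← hy, mulVec_mulVec, ← e]
    rw [hv, mulVec_add, e1, e2, one_mulVec]
  by_cases h1 : h₀ = 1
  · -- the conjugate is trivial
    rw [hg1, h1, one_kronecker_one] at hgh₀
    rw [hR, add_eq_left] at hgh₀
    have e := congrArg (fun Z => Uᴴ * Z * U) hgh₀
    simp only [← Matrix.mul_assoc, hU', Matrix.one_mul, Matrix.mul_zero, Matrix.zero_mul] at e
    rw [Matrix.mul_assoc _ Uᴴ U, hU', Matrix.mul_one] at e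
    obtain ⟨i⟩ := ‹Nonempty α›
    refine hN (Matrix.ext fun k l => ?_)
    simpa using congrFun (congrFun e (i, k)) (i, l)
  obtain ⟨v, x, hv0, hvv, -, hv', hvx⟩ := hfix h₀ hh₀E hh₀u h1
  have e := hint (h₀ *ᵥ x) w
  rw [hkw, hg1, Matrix.one_mul, mulVec_mulVec, hh₀u', one_mulVec] at e
  refine H.ct_ne hgood hU hnp hv0 hvv hw0 hw ?_
  rw [← hvx, sub_eq_add_neg, ct_add_left, e, ← neg_one_smul F x, ct_smul_left, star_neg, star_one]
  module

end Cfsg.Agent.H99.TensorU
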