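import Cfsg.Agent.H99.TensorU.Basic
import Cfsg.Agent.H99.Tensor.Group

/-!
Groups of isometries above the stabiliser of a decomposition as a tensor product of two unitary spaces: basic
elements.
-/

set_option autoImplicit false
set_option linter.unusedSectionVars false

namespace Cfsg.Agent.H99.TensorU

open Matrix Tensor
open scoped Kronecker

variable {F : Type*} [Field F] [StarRing F] {ι : Type} [Fintype ι] [DecidableEq ι]

theorem vmv_add_left (u u' x : ι → F) :
    vecMulVec (u + u') (star x) = vecMulVec u (star x) + vecMulVec u' (star x) := add_vecMulVec _ _ _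

theorem vmv_add_right (u x x' : ι → F) :
    vecMulVec u (star (x + x')) = vecMulVec u (star x) + vecMulVec u (star x') := by
  rw [star_add, vecMulVec_add]

theorem vmv_smul_left (c : F) (u x : ι → F) : vecMulVec (c • u) (star x) = c • vecMulVec u (star x) :=
  smul_vecMulVec _ _ _

theorem vmv_smul_right (c : F) (u x : ι → F) : vecMulVec u (star (c • x)) = star c • vecMulVec u (star x) := by
  ext i j
  simp [vecMulVec_apply, mul_left_comm]

theorem vmv_conj (X : Matrix ι ι F) (u x : ι → F) :
    X * vecMulVec u (star x) * Xᴴ = vecMulVec (X *ᵥ u) (star (X *ᵥ x)) := by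
  rw [Matrix.mul_vecMulVec, Matrix.vecMulVec_mul, ← Matrix.star_mulVec]

/-- The root matrix attached to an isotropic vector. -/
def nil (w η : ι → F) (c : F) : Matrix ι ι F :=
  vecMulVec η (star w) - vecMulVec w (star η) + c • vecMulVec w (star w)

theorem root_unitary {w η : ι → F} {c : F} (hw : sp w w = 0) (hη : sp w η = 0) (hc : c + star c + sp η η = 0) :
    (1 + nil w η c) * (1 + nil w η c)ᴴ = 1 ∧ (1 + nil w η c).det = 1 := by
  have hη' := sp_zero_comm.1 hη
  constructor
  · have e : (1 + nil w η c) * (1 + nil w η c)ᴴ = 1 + (c + star c + sp η η) • vecMulVec w (star w) := by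
      simp only [nil, conjTranspose_add, conjTranspose_sub, conjTranspose_one, conjTranspose_smul,
        vmv_conjTranspose, Matrix.mul_add, Matrix.add_mul, Matrix.mul_sub, Matrix.sub_mul, Matrix.smul_mul,
        Matrix.mul_smul, vmv_mul, hw, hη, hη', Matrix.one_mul, Matrix.mul_one, zero_smul, smul_zero]
      module
    rw [e, hc, zero_smul, add_zero]
  · have e : 1 + nil w η c = (1 + vecMulVec η (star w)) * (1 + vecMulVec w (star (star c • w - η))) := by
      rw [Matrix.mul_add, Matrix.add_mul, Matrix.add_mul, Matrix.mul_one, Matrix.one_mul, vmv_mul, hw, zero_smul,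
        star_sub, vecMulVec_sub, vmv_smul_right, star_star, nil]
      simp only [Matrix.mul_one, add_zero]
      abel
    rw [e, det_mul, vecMulVec_eq Unit, det_one_add_replicateCol_mul_replicateRow,
      vecMulVec_eq Unit, det_one_add_replicateCol_mul_replicateRow]
    change (1 + sp w η) * (1 + sp (star c • w - η) w) = 1
    rw [hη, sp_sub_left, sp_smul_left, hw, hη', mul_zero, sub_zero, add_zero, one_mul]

theorem trans_unitary {w : ι → F} {d : F} (hw : sp w w = 0) (hd : star d = -d) :
    (1 + d • vecMulVec w (star w)) * (1 + d • vecMulVec w (star w))ᴴ = 1 ∧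
      (1 + d • vecMulVec w (star w)).det = 1 := by
  have h := root_unitary (η := 0) (c := d) hw (sp_zero_right w) (by rw [hd, sp_zero_left]; ring)
  simpa [nil] using h

/-- A product of two transvections mapping an isotropic vector onto another. -/
theorem exists_move [Finite F] {a c : ι → F} {d : F} (ha : sp a a = 0) (hcc : sp c c = 0) (hca : sp c a ≠ 0)
    (hd0 : d ≠ 0) (hd : star d = -d) :
    ∃ k : Matrix ι ι F, k * kᴴ = 1 ∧ k.det = 1 ∧ k *ᵥ a = (d * sp c a) • c := by
  set μ := d * sp c a with hμ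
  set e := -(μ * sp a c)⁻¹ with he
  have hac : sp a c ≠ 0 := fun h => hca (sp_zero_comm.1 h)
  have he' : star e = -e := by
    rw [he, hμ, star_neg, star_inv₀, star_mul', star_mul', hd, sp_star, sp_star,
      show -d * sp a c * sp c a = -(d * sp c a * sp a c) by ring, inv_neg]
  refine ⟨(1 + e • vecMulVec a (star a)) * (1 + d • vecMulVec c (star c)), ?_, ?_, ?_⟩
  · rw [conjTranspose_mul, Matrix.mul_assoc, ← Matrix.mul_assoc (1 + d • vecMulVec c (star c)),
      (trans_unitary hcc hd).1, Matrix.one_mul, (trans_unitary ha he').1]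
  · rw [det_mul, (trans_unitary hcc hd).2, (trans_unitary ha he').2, mul_one]
  · have hka : (1 + d • vecMulVec c (star c)) *ᵥ a = a + μ • c := by
      rw [add_mulVec, one_mulVec, smul_mulVec, vmv_mulVec, smul_smul]
    rw [← mulVec_mulVec, hka, add_mulVec, one_mulVec, smul_mulVec, vmv_mulVec, sp_add_right, ha, sp_smul_right,
      zero_add, smul_smul, he, neg_mul, inv_mul_cancel₀ (mul_ne_zero (mul_ne_zero hd0 hca) hac)]
    module

variable {α : Type} [Fintype α] [DecidableEq α] {b : ℕ}

local notation "Ix" => α × Fin b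

/-- The setting: a group of isometries above the stabiliser. -/
structure Over (M : Subgroup (GL (α × Fin b) F)) : Prop where
  iso : ∀ y ∈ M, (y : Matrix (α × Fin b) (α × Fin b) F) * (y : Matrix (α × Fin b) (α × Fin b) F)ᴴ = 1
  det : ∀ y ∈ M, (y : Matrix (α × Fin b) (α × Fin b) F).det = 1
  pure : ∀ y : GL (α × Fin b) F, IsPure (y : Matrix (α × Fin b) (α × Fin b) F) →
    (y : Matrix (α × Fin b) (α × Fin b) F) * (y : Matrix (α × Fin b) (α × Fin b) F)ᴴ = 1 →
    (y : Matrix (α × Fin b) (α × Fin b) F).det = 1 → y ∈ M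
  four : 4 ≤ b
  ns : ∃ x : F, star x ≠ x

variable {M : Subgroup (GL (α × Fin b) F)} (H : Over M)
include H

theorem Over.unit {X : Matrix Ix Ix F} (hX : InM M X) : X * Xᴴ = 1 := by
  obtain ⟨y, hy, rfl⟩ := hX
  exact H.iso y hy

theorem Over.unit' {X : Matrix Ix Ix F} (hX : InM M X) : Xᴴ * X = 1 := mul_eq_one_comm.1 (H.unit hX)

theorem Over.inv {X : Matrix Ix Ix F} (hX : InM M X) : InM M Xᴴ := hX.inv (H.unit hX)

theorem Over.conj {A X : Matrix Ix Ix F} (hA : InM M (1 + A)) (hX : InM M X) : InM M (1 + X * A * Xᴴ) :=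
  hA.conj hX (H.unit hX)

theorem Over.of_pure (g : Matrix α α F) (h : Matrix (Fin b) (Fin b) F) (hu : (g ⊗ₖ h) * (g ⊗ₖ h)ᴴ = 1)
    (hd : (g ⊗ₖ h).det = 1) : InM M (g ⊗ₖ h) :=
  ⟨GeneralLinearGroup.mkOfDetNeZero (g ⊗ₖ h) (by rw [hd]; exact one_ne_zero), H.pure _ ⟨g, h, rfl⟩ hu hd, rfl⟩

theorem Over.right_factor (k : Matrix (Fin b) (Fin b) F) (hk : k * kᴴ = 1) (hd : k.det = 1) :
    InM M ((1 : Matrix α α F) ⊗ₖ k) :=
  H.of_pure _ _ (by rw [kron_conjTranspose, ← mul_kronecker_mul, hk, conjTranspose_one, Matrix.one_mul,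
    one_kronecker_one]) (by rw [det_kronecker, hd, det_one, one_pow, one_pow, one_mul])

theorem Over.left_factor (g : Matrix α α F) (hg : g * gᴴ = 1) (hd : g.det = 1) :
    InM M (g ⊗ₖ (1 : Matrix (Fin b) (Fin b) F)) :=
  H.of_pure _ _ (by rw [kron_conjTranspose, ← mul_kronecker_mul, hg, conjTranspose_one, Matrix.one_mul,
    one_kronecker_one]) (by rw [det_kronecker, hd, det_one, one_pow, one_pow, one_mul])

/-- The root elements of the second factor. -/
theorem Over.root {w η : Fin b → F} {c : F} (hw : sp w w = 0) (hη : sp w η = 0)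
    (hc : c + star c + sp η η = 0) : InM M (1 + (1 : Matrix α α F) ⊗ₖ nil w η c) := by
  rw [← one_kronecker_one (α := F) (m := α) (n := Fin b), ← kronecker_add]
  exact H.right_factor _ (root_unitary hw hη hc).1 (root_unitary hw hη hc).2

theorem Over.trans {w : Fin b → F} {d : F} (hw : sp w w = 0) (hd : star d = -d) :
    InM M (1 + (d • (1 : Matrix α α F)) ⊗ₖ vecMulVec w (star w)) := by
  have := H.root (η := 0) (c := d) hw (sp_zero_right w) (by rw [hd, sp_zero_left]; ring)
  rw [nil, star_zero, vecMulVec_zero, zero_vecMulVec, sub_zero, zero_add, kronecker_smul] at this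
  rwa [smul_kronecker]

/-- Two layers of the same isotropic vector multiply by addition. -/
theorem Over.lay_mul {w : Fin b → F} (hw : sp w w = 0) {G G' : Matrix α α F}
    (hG : InM M (1 + G ⊗ₖ vecMulVec w (star w))) (hG' : InM M (1 + G' ⊗ₖ vecMulVec w (star w))) :
    InM M (1 + (G + G') ⊗ₖ vecMulVec w (star w)) := by
  have := hG.mul hG'
  rwa [Matrix.add_mul, Matrix.one_mul, Matrix.mul_add, Matrix.mul_one, ← mul_kronecker_mul, vmv_mul, hw,
    zero_smul, kronecker_zero, add_zero, add_assoc, add_comm (G' ⊗ₖ _), ← add_kronecker] at this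

theorem Over.lay_neg {w : Fin b → F} (hw : sp w w = 0) {G : Matrix α α F}
    (hG : InM M (1 + G ⊗ₖ vecMulVec w (star w))) : InM M (1 + (-G) ⊗ₖ vecMulVec w (star w)) := by
  have := hG.neg (by rw [← mul_kronecker_mul, vmv_mul, hw, zero_smul, kronecker_zero])
  rwa [sub_eq_add_neg, show -(G ⊗ₖ vecMulVec w (star w)) = (-G) ⊗ₖ vecMulVec w (star w) by
    rw [← neg_one_smul F (G ⊗ₖ vecMulVec w (star w)), ← smul_kronecker, neg_one_smul]] at this

/-- The coefficient of a layer is skew. -/
theorem Over.lay_skew {w : Fin b → F} (hw0 : w ≠ 0) (hw : sp w w = 0) {G : Matrix α α F}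
    (hG : InM M (1 + G ⊗ₖ vecMulVec w (star w))) : Gᴴ = -G := by
  have h := H.unit hG
  rw [conjTranspose_add, conjTranspose_one, kron_conjTranspose, vmv_conjTranspose, Matrix.add_mul, Matrix.one_mul,
    Matrix.mul_add, Matrix.mul_one, ← mul_kronecker_mul, vmv_mul, hw, zero_smul, kronecker_zero, add_zero,
    add_assoc, add_eq_left, ← add_kronecker] at h
  obtain ⟨k, hk⟩ := Function.ne_iff.1 hw0
  ext i j
  have := congrFun (congrFun h (i, k)) (j, k)
  simp only [kronecker_apply, Matrix.add_apply, vecMulVec_apply, Pi.star_apply, Matrix.zero_apply, mul_eq_zero,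
    star_eq_zero, or_self] at this
  rw [Matrix.neg_apply]
  linear_combination this.resolve_right hk

/-- Layers are moved by the second factor. -/
theorem Over.lay_move [Finite F] {w w' : Fin b → F} {G : Matrix α α F} {d : F} (hw : sp w w = 0)
    (hw' : sp w' w' = 0) (h : sp w' w ≠ 0) (hd0 : d ≠ 0) (hd : star d = -d)
    (hG : InM M (1 + G ⊗ₖ vecMulVec w (star w))) :
    InM M (1 + (((d * sp w' w) * star (d * sp w' w)) • G) ⊗ₖ vecMulVec w' (star w')) := by
  obtain ⟨k, hk, hkd, hka⟩ := exists_move hw hw' h hd0 hd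
  have := H.conj hG (H.right_factor k hk hkd)
  rw [kron_conjTranspose, ← mul_kronecker_mul, ← mul_kronecker_mul, conjTranspose_one, Matrix.one_mul,
    Matrix.mul_one, vmv_conj, hka, vmv_smul_left, vmv_smul_right, smul_smul, kronecker_smul, ← smul_kronecker] at this
  exact this

end Cfsg.Agent.H99.TensorU
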