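import Cfsg.Agent.H99.Tensor.Basic
import Cfsg.Agent.H98.HermBase

/-!
The standard hermitian dot product over a field with a non-trivial involution, and the factor maps of a tensor
product with respect to it.
-/

set_option autoImplicit false
set_option linter.unusedSectionVars false

namespace Cfsg.Agent.H99.TensorU

open Matrix Tensor
open scoped Kronecker

variable {F : Type*} [Field F] [StarRing F] {ι : Type} [Fintype ι]

/-- The hermitian product, linear in the second argument. -/
def sp (u v : ι → F) : F := star u ⬝ᵥ v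

theorem sp_star (u v : ι → F) : star (sp u v) = sp v u := by
  simp only [sp, dotProduct, star_sum, star_mul', Pi.star_apply, star_star]
  exact Finset.sum_congr rfl fun i _ => mul_comm _ _

theorem sp_zero_comm {u v : ι → F} : sp u v = 0 ↔ sp v u = 0 := by
  rw [← sp_star u v, star_eq_zero]

theorem sp_add_left (u u' v : ι → F) : sp (u + u') v = sp u v + sp u' v := by
  simp [sp, add_dotProduct]

theorem sp_add_right (u v v' : ι → F) : sp u (v + v') = sp u v + sp u v' := by
  simp [sp, dotProduct_add]

theorem sp_smul_left (c : F) (u v : ι → F) : sp (c • u) v = star c * sp u v := by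
  simp only [sp, dotProduct, Pi.star_apply, Pi.smul_apply, smul_eq_mul, star_mul', Finset.mul_sum, mul_assoc]

theorem sp_smul_right (c : F) (u v : ι → F) : sp u (c • v) = c * sp u v := by
  simp [sp, dotProduct_smul]

theorem sp_zero_left (v : ι → F) : sp 0 v = 0 := by simp [sp]

theorem sp_zero_right (v : ι → F) : sp v 0 = 0 := by simp [sp]

theorem sp_neg_left (u v : ι → F) : sp (-u) v = -sp u v := by simp [sp]

theorem sp_neg_right (u v : ι → F) : sp u (-v) = -sp u v := by simp [sp]

theorem sp_sub_left (u u' v : ι → F) : sp (u - u') v = sp u v - sp u' v := by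
  rw [sub_eq_add_neg, sp_add_left, sp_neg_left, ← sub_eq_add_neg]

theorem sp_sub_right (u v v' : ι → F) : sp u (v - v') = sp u v - sp u v' := by
  rw [sub_eq_add_neg, sp_add_right, sp_neg_right, ← sub_eq_add_neg]

theorem sp_single_left [DecidableEq ι] (i : ι) (v : ι → F) : sp (Pi.single i 1) v = v i := by
  rw [sp, dotProduct, Finset.sum_eq_single i (fun j _ hj => by simp [Pi.single_eq_of_ne hj]) (by simp)]
  simp

theorem eq_zero_of_sp [DecidableEq ι] {v : ι → F} (h : ∀ u, sp u v = 0) : v = 0 :=
  funext fun i => by rw [← sp_single_left i v, h, Pi.zero_apply]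

/-- The involution as a ring automorphism. -/
def sg : F ≃+* F := starRingAut

theorem sg_apply (x : F) : (sg : F ≃+* F) x = star x := rfl

/-- The product as a unitary form. -/
def hform (v w : ι → F) : F := sp w v

variable [DecidableEq ι] (hns : ∃ x : F, star x ≠ x)
include hns

theorem hform_unitary : Cfsg.Geo.IsUnitaryForm (sg : F ≃+* F) (hform (ι := ι)) where
  ne_refl h := by
    obtain ⟨x, hx⟩ := hns
    exact hx (DFunLike.congr_fun h x)
  involutive x := star_star x
  add_left x y v := sp_add_right v x y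
  smul_left c x v := sp_smul_right c v x
  herm v w := (sp_star v w).symm
  nondegenerate v hv := by
    obtain ⟨i, hi⟩ := Function.ne_iff.1 hv
    have h : sp (Pi.single i 1) v ≠ 0 := by rwa [sp_single_left]
    exact ⟨⟨Pi.single i 1, fun h0 => h (sp_zero_comm.1 h0)⟩, ⟨Pi.single i 1, h⟩⟩

/-- A skew element. -/
theorem exists_skew : ∃ d : F, d ≠ 0 ∧ star d = -d :=
  H98.Herm.exists_skew (hform_unitary (ι := Unit) hns)

/-- Fixed elements are traces. -/
theorem exists_trace {a : F} (ha : star a = a) : ∃ x, x + star x = a :=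
  H98.Herm.exists_trace (hform_unitary (ι := Unit) hns) ha

/-- Fixed elements are norms. -/
theorem exists_norm [Finite F] {a : F} (ha : star a = a) : ∃ x, x * star x = a :=
  H98.Herm.exists_norm (hform_unitary (ι := Unit) hns) ha

variable [Finite F]

/-- An isotropic vector in every subspace of dimension at least two. -/
theorem exists_iso_in (U : Submodule F (ι → F)) (hU : 2 ≤ Module.finrank F U) :
    ∃ v ∈ U, v ≠ 0 ∧ sp v v = 0 := by
  obtain ⟨x, hx, hx0⟩ := Submodule.exists_mem_ne_zero_of_ne_bot (p := U) fun h => by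
    rw [h, finrank_bot] at hU; omega
  by_cases hxx : sp x x = 0
  · exact ⟨x, hx, hx0, hxx⟩
  obtain ⟨y, hy, hyx⟩ : ∃ y ∈ U, y ∉ Submodule.span F {x} := by
    by_contra h
    push Not at h
    have h1 := Submodule.finrank_mono h
    rw [finrank_span_singleton hx0] at h1
    omega
  set y' := y - (sp x y / sp x x) • x with hy'
  have h1 : sp x y' = 0 := by rw [hy', sp_sub_right, sp_smul_right, div_mul_cancel₀ _ hxx, sub_self]
  have hy'U : y' ∈ U := U.sub_mem hy (U.smul_mem _ hx)
  have hy'0 : y' ≠ 0 := fun h => hyx (by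
    rw [sub_eq_zero.1 (hy'.symm.trans h)]
    exact Submodule.smul_mem _ _ (Submodule.mem_span_singleton_self _))
  by_cases hyy : sp y' y' = 0
  · exact ⟨y', hy'U, hy'0, hyy⟩
  obtain ⟨t, ht⟩ := exists_norm hns (a := -(sp y' y') / sp x x) (by
    rw [star_div₀, star_neg, sp_star, sp_star])
  refine ⟨t • x + y', U.add_mem (U.smul_mem _ hx) hy'U, fun h => ?_, ?_⟩
  · have h2 := congrArg (sp x) h
    rw [sp_add_right, sp_smul_right, h1, add_zero, sp_zero_right, mul_eq_zero] at h2
    rw [h2.resolve_right hxx, zero_smul, zero_add] at h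
    exact hy'0 h
  · rw [sp_add_left, sp_add_right, sp_add_right, sp_smul_left, sp_smul_left, sp_smul_right, sp_smul_right, h1,
      sp_zero_comm.1 h1]
    have := mul_comm t (star t)
    field_simp at ht
    linear_combination ht

/-- A partner of an isotropic vector. -/
theorem partner {w : ι → F} (hw : w ≠ 0) (hww : sp w w = 0) :
    ∃ w', sp w' w' = 0 ∧ sp w w' = 1 ∧ sp w' w = 1 := by
  obtain ⟨y, hy⟩ := ((hform_unitary hns).nondegenerate w hw).2
  obtain ⟨w', -, h1, h2, h3⟩ := H98.Herm.partner_in (hform_unitary hns) (U := ⊤) (e := w)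
    Submodule.mem_top Submodule.mem_top hww hy
  exact ⟨w', h1, h3, h2⟩

/-- An isotropic vector that is not orthogonal to a given vector. -/
theorem exists_iso_not_perp (hι : 2 ≤ Fintype.card ι) {a : ι → F} (ha : a ≠ 0) :
    ∃ w, sp w w = 0 ∧ sp a w ≠ 0 := by
  obtain ⟨e, -, he0, hee⟩ := exists_iso_in hns (⊤ : Submodule F (ι → F)) (by simpa using hι)
  obtain ⟨e', he', h1, h2⟩ := partner hns he0 hee
  by_contra h
  push Not at h
  let f : (ι → F) →ₗ[F] F :=
    { toFun := fun x => sp a x
      map_add' := fun x y => sp_add_right a x y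
      map_smul' := fun c x => sp_smul_right c a x }
  have := H98.Herm.le_of_isotropic (hform_unitary hns) (U := ⊤) (S := LinearMap.ker f) (e := e) (e' := e')
    Submodule.mem_top Submodule.mem_top hee he' h2 h1 (fun w _ hw => h w hw)
  exact ha (eq_zero_of_sp fun u => sp_zero_comm.1 (this (Submodule.mem_top (x := u))))

/-- An isotropic vector that is orthogonal to neither of two given vectors. -/
theorem exists_iso_not_perp₂ (hι : 2 ≤ Fintype.card ι) {a c : ι → F} (ha : a ≠ 0) (hc : c ≠ 0) :
    ∃ w, sp w w = 0 ∧ sp a w ≠ 0 ∧ sp c w ≠ 0 := by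
  obtain ⟨u, huu, hau⟩ := exists_iso_not_perp hns hι ha
  obtain ⟨v, hvv, hcv⟩ := exists_iso_not_perp hns hι hc
  by_cases h1 : sp c u = 0
  swap
  · exact ⟨u, huu, hau, h1⟩
  by_cases h2 : sp a v = 0
  swap
  · exact ⟨v, hvv, h2, hcv⟩
  obtain ⟨d, hd, hd'⟩ := exists_skew hns
  obtain ⟨μ, hμ, hμ'⟩ : ∃ μ : F, μ ≠ 0 ∧ μ * sp u v + star μ * sp v u = 0 := by
    by_cases huv : sp u v = 0
    · exact ⟨1, one_ne_zero, by rw [huv, sp_zero_comm.1 huv]; ring⟩
    · exact ⟨d * sp v u, mul_ne_zero hd fun h => huv (sp_zero_comm.1 h),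
        by rw [star_mul', hd', sp_star]; ring⟩
  refine ⟨u + μ • v, ?_, ?_, ?_⟩
  · rw [sp_add_left, sp_add_right, sp_add_right, sp_smul_left, sp_smul_left, sp_smul_right, sp_smul_right, huu,
      hvv]
    linear_combination hμ'
  · rw [sp_add_right, sp_smul_right, h2, mul_zero, add_zero]; exact hau
  · rw [sp_add_right, sp_smul_right, h1, zero_add]; exact mul_ne_zero hμ hcv

omit hns in
/-- The annihilator of a family. -/
theorem finrank_perp {k : ℕ} (v : Fin k → (ι → F)) :
    ∃ U : Submodule F (ι → F), Fintype.card ι ≤ Module.finrank F U + k ∧ ∀ x ∈ U, ∀ i, sp (v i) x = 0 := by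
  let f : (ι → F) →ₗ[F] (Fin k → F) :=
    LinearMap.pi fun i =>
      { toFun := fun x => sp (v i) x
        map_add' := fun x y => sp_add_right _ x y
        map_smul' := fun c x => sp_smul_right c _ x }
  refine ⟨LinearMap.ker f, ?_, fun x hx i => congrFun hx i⟩
  have h1 := LinearMap.finrank_range_add_finrank_ker f
  have h2 := Submodule.finrank_le (LinearMap.range f)
  rw [Module.finrank_pi] at h1 h2
  rw [Fintype.card_fin] at h2
  omega

/-- An isotropic vector orthogonal to a short family. -/
theorem exists_iso_perp {k : ℕ} (v : Fin k → (ι → F)) (hk : k + 2 ≤ Fintype.card ι) :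
    ∃ x, x ≠ 0 ∧ sp x x = 0 ∧ ∀ i, sp (v i) x = 0 := by
  obtain ⟨U, hU, hUv⟩ := finrank_perp v
  obtain ⟨x, hx, hx0, hxx⟩ := exists_iso_in hns U (by omega)
  exact ⟨x, hx0, hxx, hUv x hx⟩

omit hns [DecidableEq ι] [Finite F]

/-- Products of rank one matrices. -/
theorem vmv_mul (u x y z : ι → F) :
    vecMulVec u (star x) * vecMulVec y (star z) = sp x y • vecMulVec u (star z) := by
  ext i j
  simp only [Matrix.mul_apply, vecMulVec_apply, Matrix.smul_apply, smul_eq_mul, sp, dotProduct, Finset.sum_mul,
    Pi.star_apply]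
  exact Finset.sum_congr rfl fun k _ => by ring

theorem vmv_conjTranspose (u x : ι → F) : (vecMulVec u (star x))ᴴ = vecMulVec x (star u) := by
  ext i j
  simp [vecMulVec_apply, mul_comm]

theorem vmv_mulVec (u x y : ι → F) : vecMulVec u (star x) *ᵥ y = sp x y • u := by
  ext i
  simp only [Matrix.mulVec, dotProduct, vecMulVec_apply, Pi.smul_apply, smul_eq_mul, sp, Finset.sum_mul,
    Pi.star_apply]
  exact Finset.sum_congr rfl fun k _ => by ring

section Factor

variable {α β : Type} [Fintype α] [DecidableEq α] [Fintype β] [DecidableEq β]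

theorem lft_conjTranspose (w : β → F) : (lft α w)ᴴ = rgt α (star w) := by
  ext i p
  simp only [Matrix.conjTranspose_apply, lft_apply, rgt_apply, Pi.star_apply]
  split_ifs <;> simp

theorem rgt_conjTranspose (w : β → F) : (rgt α (star w))ᴴ = lft α w := by
  rw [← lft_conjTranspose, Matrix.conjTranspose_conjTranspose]

theorem rgt_star_smul (c : F) (w : β → F) : rgt α (star (c • w)) = star c • rgt α (star w) := by
  rw [← lft_conjTranspose, lft_smul, Matrix.conjTranspose_smul, lft_conjTranspose]

/-- The contraction of a matrix along two vectors of the second factor. -/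
def ct (α : Type) [Fintype α] [DecidableEq α] (X : Matrix (α × β) (α × β) F) (u w : β → F) : Matrix α α F :=
  rgt α (star u) * X * lft α w

theorem ct_conjTranspose (X : Matrix (α × β) (α × β) F) (u w : β → F) : (ct α X u w)ᴴ = ct α Xᴴ w u := by
  rw [ct, ct, Matrix.conjTranspose_mul, Matrix.conjTranspose_mul, rgt_conjTranspose, lft_conjTranspose,
    Matrix.mul_assoc]

theorem ct_one (u w : β → F) : ct α (1 : Matrix (α × β) (α × β) F) u w = sp u w • (1 : Matrix α α F) := by
  rw [ct, Matrix.mul_one, rgt_mul_lft, sp]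

theorem ct_add (X Y : Matrix (α × β) (α × β) F) (u w : β → F) : ct α (X + Y) u w = ct α X u w + ct α Y u w := by
  rw [ct, ct, ct, Matrix.mul_add, Matrix.add_mul]

theorem ct_smul_right (c : F) (X : Matrix (α × β) (α × β) F) (u w : β → F) :
    ct α X u (c • w) = c • ct α X u w := by
  rw [ct, ct, lft_smul, Matrix.mul_smul]

theorem ct_add_right (X : Matrix (α × β) (α × β) F) (u w w' : β → F) :
    ct α X u (w + w') = ct α X u w + ct α X u w' := by
  rw [ct, ct, ct, lft_add, Matrix.mul_add]

theorem ct_smul_left (c : F) (X : Matrix (α × β) (α × β) F) (u w : β → F) :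
    ct α X (c • u) w = star c • ct α X u w := by
  rw [ct, ct, rgt_star_smul, Matrix.smul_mul, Matrix.smul_mul]

theorem ct_add_left (X : Matrix (α × β) (α × β) F) (u u' w : β → F) :
    ct α X (u + u') w = ct α X u w + ct α X u' w := by
  rw [ct, ct, ct, star_add, rgt_add, Matrix.add_mul, Matrix.add_mul]

theorem kron_conjTranspose (g : Matrix α α F) (h : Matrix β β F) : (g ⊗ₖ h)ᴴ = gᴴ ⊗ₖ hᴴ :=
  Matrix.conjTranspose_kronecker g h

end Factor

end Cfsg.Agent.H99.TensorU
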