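import Cfsg.Agent.H99.TensorU.Conjugate
import Cfsg.Agent.H99.TensorU.Zero

/-!
Contractions of full rank: the conjugates of the unipotent radical of a totally isotropic plane of the second
factor.  Its coefficients form a four dimensional space over the fixed field, on which a cubic form has a zero.
-/

set_option autoImplicit false
set_option linter.unusedSectionVars false

namespace Cfsg.Agent.H99.TensorU

open Matrix Tensor MvPolynomial
open scoped Kronecker

/-- A skew pencil in many variables has a singular member. -/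
theorem exists_zero_det {F : Type*} [Field F] [StarRing F] [Finite F] {α : Type} [Fintype α] [DecidableEq α]
    [Nonempty α] {κ : Type} [Fintype κ] [DecidableEq κ] (hns : ∃ x : F, star x ≠ x)
    (hκ : Fintype.card α < Fintype.card κ) (Mt : κ → Matrix α α F) {s : F} (hs0 : s ≠ 0)
    (hs : ∀ y : κ → fixF F, star (s * (∑ i, (y i : F) • Mt i).det) = s * (∑ i, (y i : F) • Mt i).det) :
    ∃ x : κ → fixF F, x ≠ 0 ∧ (∑ i, (x i : F) • Mt i).det = 0 := by
  classical
  have : Fintype (fixF F) := Fintype.ofFinite _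
  obtain ⟨p, hp⟩ := CharP.exists (fixF F)
  let e := Fintype.equivFin α
  let P : Matrix (Fin (Fintype.card α)) (Fin (Fintype.card α)) (MvPolynomial κ F) :=
    ∑ i, (MvPolynomial.X i : MvPolynomial κ F) • ((Mt i).submatrix e.symm e.symm).map MvPolynomial.C
  let q₂ : MvPolynomial κ F := MvPolynomial.C s * P.det
  have e2 : ∀ x : κ → fixF F, eval (fun i => (x i : F)) q₂ = s * (∑ i, (x i : F) • Mt i).det := by
    intro x
    simp only [q₂, map_mul, eval_C, RingHom.map_det]
    congr 1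
    rw [← Matrix.det_submatrix_equiv_self e.symm (∑ i, (x i : F) • Mt i)]
    congr 1
    ext a c
    simp [P, Matrix.sum_apply]
  obtain ⟨g₂, d₂, hg₂⟩ := exists_fixed_poly hns q₂
  have v2 : ∀ x, ((eval x g₂ : fixF F) : F) = eval (fun i => (x i : F)) q₂ := fun x => hg₂ x (by rw [e2]; exact hs x)
  have hd2 : q₂.totalDegree ≤ Fintype.card α := by
    refine le_trans (totalDegree_mul _ _) ?_
    rw [totalDegree_C, zero_add]
    refine totalDegree_det_le P fun a c => ?_
    simp only [P, Matrix.sum_apply]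
    refine totalDegree_finsetSum_le fun i _ => ?_
    rw [Matrix.smul_apply, smul_eq_mul, Matrix.map_apply]
    refine le_trans (totalDegree_mul _ _) ?_
    rw [totalDegree_C, totalDegree_X]
  have hdiv := char_dvd_card_solutions p (f := g₂) (by omega)
  have h02 : eval (0 : κ → fixF F) g₂ = 0 := Subtype.ext (by rw [v2, e2]; simp)
  have hp2 : 2 ≤ p := ((CharP.char_is_prime_or_zero (fixF F) p).resolve_right (fun h => by
    subst h; exact CharP.char_ne_zero_of_finite (fixF F) 0 rfl)).two_le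
  have hcard : 1 < Fintype.card { x : κ → fixF F // eval x g₂ = 0 } := by
    have : 0 < Fintype.card { x : κ → fixF F // eval x g₂ = 0 } := Fintype.card_pos_iff.2 ⟨⟨0, h02⟩⟩
    exact lt_of_lt_of_le hp2 (Nat.le_of_dvd this hdiv)
  obtain ⟨⟨x, hx⟩, hne⟩ := Fintype.exists_ne_of_one_lt_card hcard ⟨0, h02⟩
  refine ⟨x, fun h => hne (Subtype.ext h), ?_⟩
  have : s * (∑ i, (x i : F) • Mt i).det = 0 := by rw [← e2, ← v2, hx]; rfl
  exact (mul_eq_zero.1 this).resolve_left hs0

variable {F : Type*} [Field F] [StarRing F] [Finite F] {α : Type} [Fintype α] [DecidableEq α] {b : ℕ}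

local notation "Ix" => α × Fin b

variable {M : Subgroup (GL (α × Fin b) F)} (H : Over M) (hgood : Good M)
include H hgood

/-- A conjugate of a square-zero element with full contractions. -/
theorem Over.conj_sq_not_pure [Nonempty α] {U : Matrix Ix Ix F} (hU : InM M U) (hnp : ¬ IsPure U)
    {N : Matrix (Fin b) (Fin b) F} (hNN : N * N = 0) (hN : N ≠ 0)
    (hNM : InM M (1 + (1 : Matrix α α F) ⊗ₖ N)) {w : Fin b → F} (hw0 : w ≠ 0) (hw : sp w w = 0) (hNw : N *ᵥ w = 0)
    (hfull : ∀ x : Fin b → F, x ≠ 0 → sp x x = 0 → IsUnit (ct α U x w).det) :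
    ¬ IsPure (1 + U * ((1 : Matrix α α F) ⊗ₖ N) * Uᴴ) := by
  have : NeZero b := ⟨by have := H.four; omega⟩
  rintro ⟨g, h, hgh⟩
  set R := 1 + U * ((1 : Matrix α α F) ⊗ₖ N) * Uᴴ with hR
  have hU' : Uᴴ * U = 1 := H.unit' hU
  have hN3 : N * N * N = 0 := by rw [hNN, Matrix.zero_mul]
  obtain ⟨p, hp⟩ := CharP.exists F
  have hpp : p.Prime := (CharP.char_is_prime_or_zero F p).resolve_right (fun h0 => by
    subst h0; exact CharP.char_ne_zero_of_finite F 0 rfl)
  have : Fact p.Prime := ⟨hpp⟩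
  set E := p ^ 2 with hE
  have hE3 : 3 ≤ E := by
    have := hpp.two_le
    calc 3 ≤ 2 * 2 := by norm_num
      _ ≤ p * p := Nat.mul_le_mul this this
      _ = E := by rw [hE, sq]
  have hRE : R ^ E = 1 := by
    set A := U * ((1 : Matrix α α F) ⊗ₖ N) * Uᴴ with hA
    have hA3 : A * A * A = 0 := by
      rw [hA]
      simp only [Matrix.mul_assoc]
      rw [← Matrix.mul_assoc Uᴴ U, hU', Matrix.one_mul, ← Matrix.mul_assoc Uᴴ U, hU', Matrix.one_mul,
        ← Matrix.mul_assoc ((1 : Matrix α α F) ⊗ₖ N), ← mul_kronecker_mul, ← Matrix.mul_assoc, ← Matrix.mul_assoc,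
        Matrix.mul_assoc U, ← mul_kronecker_mul, hN3, Matrix.one_mul, Matrix.one_mul, kronecker_zero,
        Matrix.mul_zero, Matrix.zero_mul]
    have hAE : A ^ E = 0 := by
      obtain ⟨e, he⟩ := Nat.exists_eq_add_of_le hE3
      rw [he, pow_add, pow_three, ← Matrix.mul_assoc, hA3, Matrix.zero_mul]
    rw [hR, hE, add_pow_char_pow_of_commute _ _ (Commute.one_left A), one_pow, ← hE, hAE, add_zero]
  have hkp : ∀ m : ℕ, (g ⊗ₖ h) ^ m = (g ^ m) ⊗ₖ (h ^ m) := by
    intro m
    induction m with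
    | zero => simp [one_kronecker_one]
    | succ m ih => rw [pow_succ, ih, ← mul_kronecker_mul, ← pow_succ, ← pow_succ]
  rw [hgh, hkp] at hRE
  obtain ⟨μ, hμ0, hgE, hhE⟩ := kron_eq_one hRE
  obtain ⟨l, hl⟩ : ∃ l : F, l ^ E = μ := by
    have := (iterateFrobeniusEquiv F p 2).surjective μ
    obtain ⟨l, hl⟩ := this
    exact ⟨l, by rwa [iterateFrobeniusEquiv_apply] at hl⟩
  have hl0 : l ≠ 0 := fun h0 => hμ0 (by rw [← hl, h0, zero_pow (by omega)])
  set g₀ := l⁻¹ • g with hg₀
  set h₀ := l • h with hh₀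
  have hgh₀ : R = g₀ ⊗ₖ h₀ := by
    rw [hg₀, hh₀, smul_kronecker, kronecker_smul, smul_smul, inv_mul_cancel₀ hl0, one_smul, hgh]
  have hg₀E : g₀ ^ E = 1 := by
    rw [hg₀, smul_pow, hgE, smul_smul, inv_pow, hl, inv_mul_cancel₀ hμ0, one_smul]
  have hh₀E : h₀ ^ E = 1 := by
    rw [hh₀, smul_pow, hhE, smul_smul, hl, mul_inv_cancel₀ hμ0, one_smul]
  have hRu : R * Rᴴ = 1 := by
    have h1 := H.unit (H.conj hNM hU)
    rwa [← hR] at h1
  rw [hgh₀, kron_conjTranspose, ← mul_kronecker_mul] at hRu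
  obtain ⟨ν, hν0, -, hhh⟩ := kron_eq_one hRu
  have hh₀u : h₀ * h₀ᴴ = 1 := by
    suffices hν : ν⁻¹ = 1 by rw [hhh, hν, one_smul]
    obtain ⟨e, he⟩ : ∃ e, E = e + 1 := ⟨E - 1, by omega⟩
    have e1 : h₀ᴴ = ν⁻¹ • h₀ ^ e := by
      calc h₀ᴴ = h₀ ^ E * h₀ᴴ := by rw [hh₀E, Matrix.one_mul]
        _ = h₀ ^ e * (h₀ * h₀ᴴ) := by rw [he, pow_succ, Matrix.mul_assoc]
        _ = _ := by rw [hhh, Matrix.mul_smul, Matrix.mul_one]
    have e2 : (h₀ᴴ) ^ E = 1 := by rw [← conjTranspose_pow, hh₀E, conjTranspose_one]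
    rw [e1, smul_pow, ← pow_mul, mul_comm, pow_mul, hh₀E, one_pow] at e2
    have e3 := congrFun (congrFun e2 0) 0
    simp only [Matrix.smul_apply, Matrix.one_apply_eq, smul_eq_mul, mul_one] at e3
    have : (ν⁻¹ - 1) ^ E = 0 := by rw [sub_pow_char_pow (p := p), one_pow, ← hE, e3, sub_self]
    exact sub_eq_zero.1 (eq_zero_of_pow_eq_zero this)
  have hh₀u' : h₀ᴴ * h₀ = 1 := mul_eq_one_comm.1 hh₀u
  -- the intertwining identity
  have hUR : U * ((1 : Matrix α α F) ⊗ₖ (1 + N)) = (g₀ ⊗ₖ h₀) * U := by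
    rw [← hgh₀, hR, kronecker_add, one_kronecker_one, Matrix.mul_add, Matrix.add_mul, Matrix.one_mul, Matrix.mul_one,
      Matrix.mul_assoc _ Uᴴ U, hU', Matrix.mul_one]
  have hint : ∀ x y : Fin b → F, ct α U x ((1 + N) *ᵥ y) = g₀ * ct α U (h₀ᴴ *ᵥ x) y := by
    intro x y
    have e := congrArg (fun Z => rgt α (star x) * Z * lft α y) hUR
    simp only [Matrix.mul_assoc, kron_lft, Matrix.mul_one] at e
    rw [← Matrix.mul_assoc (rgt α (star x)) (g₀ ⊗ₖ h₀), rgt_kron, Matrix.mul_assoc g₀] at e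
    rw [ct, ct, star_mulVec, conjTranspose_conjTranspose]
    simp only [Matrix.mul_assoc]
    exact e
  have hkw : (1 + N) *ᵥ w = w := by rw [add_mulVec, one_mulVec, hNw, add_zero]
  -- a fixed isotropic vector
  have hfix : ∀ m : Matrix (Fin b) (Fin b) F, m ^ E = 1 → m * mᴴ = 1 → m ≠ 1 →
      ∃ v x : Fin b → F, v ≠ 0 ∧ sp v v = 0 ∧ m *ᵥ v = v ∧ mᴴ *ᵥ v = v ∧ m *ᵥ x - x = v := by
    intro m hmE hmu hm1
    have hmu' : mᴴ * m = 1 := mul_eq_one_comm.1 hmu
    have hnil : (m - 1) ^ E = 0 := by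
      rw [hE, sub_pow_char_pow_of_commute _ _ (Commute.one_right m), one_pow, ← hE, hmE, sub_self]
    classical
    have hex : ∃ j, (m - 1) ^ j = 0 := ⟨E, hnil⟩
    have h2 : 2 ≤ Nat.find hex := by
      rcases Nat.lt_or_ge (Nat.find hex) 2 with hlt | hge
      · exfalso
        have hs := Nat.find_spec hex
        interval_cases hh : Nat.find hex
        · simp at hs
        · exact hm1 (sub_eq_zero.1 (by simpa using hs))
      · exact hge
    obtain ⟨j, hj⟩ := Nat.exists_eq_add_of_le h2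
    have hj1 : (m - 1) ^ (j + 1) ≠ 0 := Nat.find_min hex (by omega)
    obtain ⟨k, hk⟩ : ∃ k, (m - 1) ^ (j + 1) *ᵥ Pi.single k 1 ≠ 0 := by
      by_contra hc
      push Not at hc
      exact hj1 (Matrix.ext_of_mulVec_single fun k => by rw [hc k, Matrix.zero_mulVec])
    set x := (m - 1) ^ j *ᵥ Pi.single k 1 with hx
    set v := (m - 1) ^ (j + 1) *ᵥ Pi.single k 1 with hv
    have hvx : m *ᵥ x - x = v := by
      rw [hv, pow_succ', ← mulVec_mulVec, ← hx, sub_mulVec, one_mulVec]
    have hmv : m *ᵥ v = v := by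
      rw [← sub_eq_zero]
      have : (m - 1) *ᵥ v = 0 := by
        rw [hv, mulVec_mulVec, ← pow_succ', show j + 1 + 1 = Nat.find hex by omega, Nat.find_spec hex, zero_mulVec]
      rwa [sub_mulVec, one_mulVec] at this
    have hmv' : mᴴ *ᵥ v = v := by
      conv_lhs => rw [← hmv, mulVec_mulVec, hmu', one_mulVec]
    refine ⟨v, x, hk, ?_, hmv, hmv', hvx⟩
    have e : ∀ u : Fin b → F, sp u (m *ᵥ x) = sp (mᴴ *ᵥ u) x := fun u => by
      rw [sp, sp, star_mulVec, conjTranspose_conjTranspose, ← dotProduct_mulVec]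
    conv_lhs => arg 2; rw [← hvx]
    rw [sp_sub_right, e, hmv', sub_self]
  have hg1 : g₀ = 1 := by
    obtain ⟨x, hx0, hxx, hfx⟩ : ∃ x : Fin b → F, x ≠ 0 ∧ sp x x = 0 ∧ h₀ᴴ *ᵥ x = x := by
      by_cases h1 : h₀ = 1
      · exact ⟨w, hw0, hw, by rw [h1, conjTranspose_one, one_mulVec]⟩
      · obtain ⟨v, -, hv0, hvv, -, hv', -⟩ := hfix h₀ hh₀E hh₀u h1
        exact ⟨v, hv0, hvv, hv'⟩
    have e := hint x w
    rw [hkw, hfx] at e
    have hu := hfull x hx0 hxx
    have := congrArg (· * (ct α U x w)⁻¹) e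
    simp only [Matrix.mul_nonsing_inv _ hu, Matrix.mul_nonsing_inv_cancel_right _ _ hu] at this
    exact this.symm
  by_cases h1 : h₀ = 1
  · -- the conjugate is trivial
    rw [hg1, h1, one_kronecker_one] at hgh₀
    rw [hR, add_eq_left] at hgh₀
    have e := congrArg (fun Z => Uᴴ * Z * U) hgh₀
    simp only [← Matrix.mul_assoc, hU', Matrix.one_mul, Matrix.mul_zero, Matrix.zero_mul] at e
    rw [Matrix.mul_assoc _ Uᴴ U, hU', Matrix.mul_one] at e
    obtain ⟨i⟩ := ‹Nonempty α›
    refine hN (Matrix.ext fun k l => ?_)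
    simpa using congrFun (congrFun e (i, k)) (i, l)
  obtain ⟨v, x, hv0, hvv, -, hv', hvx⟩ := hfix h₀ hh₀E hh₀u h1
  have e := hint (h₀ *ᵥ x) w
  rw [hkw, hg1, Matrix.one_mul, mulVec_mulVec, hh₀u', one_mulVec] at e
  refine H.ct_ne hgood hU hnp hv0 hvv hw0 hw ?_
  rw [← hvx, sub_eq_add_neg, ct_add_left, e, ← neg_one_smul F x, ct_smul_left, star_neg, star_one]
  module

/-- Some element that is not a pure tensor has a singular contraction when the second factor beats three. -/
theorem Over.exists_singular [Nonempty α] (hα : Fintype.card α < 4) {X : Matrix Ix Ix F} (hX : InM M X)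
    (hnp : ¬ IsPure X) :
    ∃ (Y : Matrix Ix Ix F) (u v : Fin b → F), InM M Y ∧ ¬ IsPure Y ∧ u ≠ 0 ∧ sp u u = 0 ∧ v ≠ 0 ∧ sp v v = 0 ∧
      (ct α Y u v).det = 0 := by
  by_contra hc
  push Not at hc
  obtain ⟨w, hw0, hw⟩ := H.exists_iso
  obtain ⟨w', hw', hww', hw'w⟩ := partner H.ns hw0 hw
  obtain ⟨η, hη0, hη, hp⟩ := exists_iso_perp H.ns ![w, w'] (by rw [Fintype.card_fin]; have := H.four; omega)
  have hwη : sp w η = 0 := hp 0
  have hw'η : sp w' η = 0 := hp 1
  have hηw : sp η w = 0 := sp_zero_comm.1 hwη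
  obtain ⟨d, hd0, hd⟩ := exists_skew H.ns
  obtain ⟨ξ, hξ⟩ := H.ns
  let Ni : Fin 4 → Matrix (Fin b) (Fin b) F :=
    ![d • vecMulVec w (star w), d • vecMulVec η (star η), vecMulVec w (star η) - vecMulVec η (star w),
      ξ • vecMulVec w (star η) - star ξ • vecMulVec η (star w)]
  let Mt : Fin 4 → Matrix α α F := fun i => ct α (X * ((1 : Matrix α α F) ⊗ₖ Ni i) * Xᴴ) w w
  have hskew : ∀ i, (Ni i)ᴴ = -Ni i := by
    intro i
    fin_cases i <;> simp [Ni, conjTranspose_smul, vmv_conjTranspose, hd]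
  have hMskew : ∀ i, (Mt i)ᴴ = -Mt i := fun i => by
    simp only [Mt, ct_conjTranspose, conjTranspose_mul, conjTranspose_conjTranspose, kron_conjTranspose,
      conjTranspose_one, hskew, ← neg_one_smul F (Ni i), kronecker_smul, Matrix.mul_smul, Matrix.smul_mul,
      Matrix.mul_assoc]
    simp only [ct, Matrix.mul_neg, Matrix.neg_mul, Matrix.mul_assoc, neg_one_smul]
  obtain ⟨x, hx0, hdet⟩ := exists_zero_det H.ns (by simpa using hα) Mt (pow_ne_zero (Fintype.card α) hd0) fun y => by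
    set T := ∑ i, (y i : F) • Mt i
    have e : Tᴴ = -T := by
      simp only [T, conjTranspose_sum, conjTranspose_smul, hMskew, fix_star, smul_neg, Finset.sum_neg_distrib]
    rw [star_mul', star_pow, hd, ← det_conjTranspose, e, det_neg, ← mul_assoc, ← mul_pow]
    simp
  set t : F := (x 2 : F) + ξ * (x 3 : F) with ht
  set a : F := (x 0 : F) * d with ha
  set c : F := (x 1 : F) * d with hc'
  set N : Matrix (Fin b) (Fin b) F := ∑ i, (x i : F) • Ni i with hNdef
  have hst : star t = (x 2 : F) + star ξ * (x 3 : F) := by rw [ht, star_add, star_mul', fix_star, fix_star]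
  have hN' : N = nil w ((-star t) • η) a + c • vecMulVec η (star η) := by
    simp only [hNdef, Fin.sum_univ_four, Ni, Matrix.cons_val_zero, Matrix.cons_val_one, Matrix.cons_val, nil,
      vmv_smul_left, vmv_smul_right, star_neg, star_star, ha, hc', ht, star_add, star_mul', fix_star]
    module
  have hNN : N * N = 0 := by
    rw [hN', nil]
    simp [Matrix.add_mul, Matrix.mul_add, Matrix.sub_mul, Matrix.mul_sub, vmv_smul_left, vmv_smul_right,
      Matrix.smul_mul, Matrix.mul_smul, vmv_mul, hw, hη, hwη, hηw]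
  have hNw : N *ᵥ w = 0 := by
    rw [hN', nil]
    simp [add_mulVec, sub_mulVec, neg_mulVec, smul_mulVec, vmv_mulVec, sp_smul_left, hw, hηw]
  have hN0 : N ≠ 0 := by
    intro h0
    have h1 := congrArg (· *ᵥ w') h0
    simp only [hN', nil, vmv_smul_left, vmv_smul_right, add_mulVec, sub_mulVec, smul_mulVec, vmv_mulVec,
      hww', sp_zero_comm.1 hw'η, zero_mulVec, zero_smul, smul_zero, sub_zero, add_zero, one_smul] at h1
    have ha0 : a = 0 := by
      have := congrArg (sp w') h1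
      rwa [sp_add_right, sp_smul_right, sp_smul_right, hw'η, mul_zero, zero_add, hw'w, mul_one,
        sp_zero_right] at this
    rw [ha0, zero_smul, add_zero, smul_eq_zero, neg_eq_zero, star_eq_zero] at h1
    have ht0 : t = 0 := h1.resolve_right hη0
    have hc0 : c = 0 := by
      have h2 := h0
      rw [hN', ha0, ht0, nil] at h2
      simp at h2
      exact h2.resolve_right hη0
    have e0 : (x 0 : F) = 0 := (mul_eq_zero.1 ha0).resolve_right hd0
    have e1 : (x 1 : F) = 0 := (mul_eq_zero.1 hc0).resolve_right hd0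
    have e3 : (x 3 : F) = 0 := (mul_eq_zero.1 (show (x 3 : F) * (star ξ - ξ) = 0 by
      rw [show (x 3 : F) * (star ξ - ξ) = star t - t by rw [hst, ht]; ring, ht0, star_zero, sub_zero])).resolve_right
      (sub_ne_zero.2 hξ)
    have e2 : (x 2 : F) = 0 := by rw [ht, e3, mul_zero, add_zero] at ht0; exact ht0
    refine hx0 (funext fun i => Subtype.ext ?_)
    fin_cases i
    · exact e0
    · exact e1
    · exact e2
    · exact e3
  have hNM : InM M (1 + (1 : Matrix α α F) ⊗ₖ N) := by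
    have h1 := H.root (α := α) (c := a) hw (η := (-star t) • η) (by rw [sp_smul_right, hwη, mul_zero])
      (by rw [ha, star_mul', fix_star, hd, sp_smul_left, sp_smul_right, hη]; ring)
    have h2 := H.trans (α := α) hη (d := c) (by rw [hc', star_mul', fix_star, hd]; ring)
    have h3 := h1.mul h2
    convert h3 using 1
    have hz : nil w ((-star t) • η) a * vecMulVec η (star η) = 0 := by
      simp [nil, Matrix.add_mul, Matrix.sub_mul, vmv_smul_left, vmv_smul_right, Matrix.smul_mul, vmv_mul, hwη, hη]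
    rw [hN', smul_kronecker, Matrix.add_mul, Matrix.one_mul, Matrix.mul_add, Matrix.mul_one, Matrix.mul_smul,
      ← mul_kronecker_mul, Matrix.one_mul, hz, kronecker_zero, smul_zero, add_zero, kronecker_add, kronecker_smul]
    abel
  have hfull : ∀ u : Fin b → F, u ≠ 0 → sp u u = 0 → IsUnit (ct α X u w).det := fun u hu0 huu =>
    Ne.isUnit (hc X u w hX hnp hu0 huu hw0 hw)
  refine hc _ w w (H.conj hNM hX) (H.conj_sq_not_pure hgood hX hnp hNN hN0 hNM hw0 hw hNw hfull) hw0 hw hw0 hw ?_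
  rw [ct_add, ct_one, hw, zero_smul, zero_add, ← hdet]
  congr 1
  have hk : (1 : Matrix α α F) ⊗ₖ N = ∑ i, (x i : F) • ((1 : Matrix α α F) ⊗ₖ Ni i) := by
    simp only [hNdef, Fin.sum_univ_four, kronecker_add, kronecker_smul]
  simp only [hk, Mt, ct, Matrix.mul_sum, Matrix.sum_mul, Matrix.mul_smul, Matrix.smul_mul]

end Cfsg.Agent.H99.TensorU
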